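import Cfsg.Agent.H18.Monster.Prime.FiveTables
import Cfsg.Prelude.Def_MonsterType

/-!
The code permutation of cycle type `1^4 5^4`: the centralizer of its lift to the automorphism group
of the Leech lattice acts on ten subspaces of the fixed sublattice modulo two as the wreath product
of the alternating group of degree 5 by a group of order 2.
-/

set_option autoImplicit false
set_option maxRecDepth 100000

namespace Cfsg.Agent.H18.Monster.Prime.Five

open Cfsg Cfsg.Agent.H14 Cfsg.Agent.H18.Monster.Prime.FiveData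

theorem sig_moves : frame.O.π (Held.pt 1) ≠ Held.pt 1 := by decide +kernel

/-- The numbering of the subspaces. -/
def e : Fin 10 ≃ Fin 5 ⊕ Fin 5 := (finSumFinEquiv (m := 5) (n := 5)).symm

/-- A product of transpositions. -/
def swaps (l : List (Fin 5 × Fin 5)) : Equiv.Perm (Fin 5) :=
  (l.map fun a => Equiv.swap a.1 a.2).prod

/-- The permutation of a generator. -/
noncomputable def genPerm (g : ℕ) : Equiv.Perm (Fin 5 ⊕ Fin 5) :=
  (if genS.getD g false then Equiv.sumComm (Fin 5) (Fin 5) else 1) *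
    Equiv.Perm.sumCongr (swaps (genA.getD g [])) (swaps (genB.getD g []))

theorem gen_even : ∀ g : Fin 29, Equiv.Perm.sign (swaps (genA.getD g.val [])) = 1 ∧
    Equiv.Perm.sign (swaps (genB.getD g.val [])) = 1 := by decide +kernel

theorem gen_val : ∀ g : Fin 29, ∀ i : Fin 10,
    (e.symm (genPerm g.val (e i))).val = (permG.getD g.val []).getD i.val 0 := by decide +kernel

theorem sumComm_mem : (Equiv.sumComm (Fin 5) (Fin 5) : Equiv.Perm _) ∈ alternatingFiveWreathTwo :=
  Subgroup.subset_closure (Or.inr rfl)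

theorem sumCongr_mem {a b : Equiv.Perm (Fin 5)} (ha : a ∈ alternatingGroup (Fin 5))
    (hb : b ∈ alternatingGroup (Fin 5)) : Equiv.Perm.sumCongr a b ∈ alternatingFiveWreathTwo :=
  Subgroup.subset_closure (Or.inl ⟨⟨a, ha⟩, ⟨b, hb⟩, rfl⟩)

theorem hgen (g : Fin (1 + frame.NT + frame.NW)) :
    ∃ π ∈ alternatingFiveWreathTwo, ∀ i : Fin frame.N,
      (e.symm (π (e i))).val = (frame.permG.getD g.val []).getD i.val 0 := by
  refine ⟨genPerm g.val, mul_mem ?_ (sumCongr_mem (Equiv.Perm.mem_alternatingGroup.2 (gen_even g).1)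
    (Equiv.Perm.mem_alternatingGroup.2 (gen_even g).2)), gen_val g⟩
  split
  exacts [sumComm_mem, one_mem _]

theorem alt_list : ∀ σ : Equiv.Perm (Fin 5), Equiv.Perm.sign σ = 1 →
    ∃ r : Fin 60, ∀ x, (σ x).val = (altL.getD r.val []).getD x.val 0 := by decide +kernel

theorem alt_data : ∀ r : Fin 60, (altD.getD r.val []).getD 0 0 < classes.length ∧
    (altD.getD r.val []).getD 1 0 < 16 ∧ (altD.getD r.val []).getD 2 0 < 12 ∧
    ∀ i : Fin 10, (permC.getD ((altD.getD r.val []).getD 0 0) []).getD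
      ((permG.getD (1 + 12 + (altD.getD r.val []).getD 1 0) []).getD
        ((permG.getD (1 + (altD.getD r.val []).getD 2 0) []).getD i.val 0) 0) 0 =
      if i.val < 5 then (altL.getD r.val []).getD i.val 0 else i.val := by decide +kernel

theorem swap_data : swapD.getD 0 0 < classes.length ∧ swapD.getD 1 0 < 16 ∧ swapD.getD 2 0 < 12 ∧
    ∀ i : Fin 10, (permC.getD (swapD.getD 0 0) []).getD
      ((permG.getD (1 + 12 + swapD.getD 1 0) []).getD
        ((permG.getD (1 + swapD.getD 2 0) []).getD i.val 0) 0) 0 = (i.val + 5) % 10 := by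
  decide +kernel

theorem permX_eq {k : frame.K} {π : Equiv.Perm (Fin 5 ⊕ Fin 5)}
    (h : ∀ i, (frame.perm k i).val = (e.symm (π (e i))).val) : frame.permX e k = π := by
  refine Equiv.ext fun x => ?_
  obtain ⟨i, rfl⟩ := e.surjective x
  show e (frame.perm k (e.symm (e i))) = _
  rw [Equiv.symm_apply_apply, Fin.ext (h i), Equiv.apply_symm_apply]

theorem e_comm : ∀ i : Fin 10, (e.symm (Equiv.sumComm (Fin 5) (Fin 5) (e i))).val = (i.val + 5) % 10 := by
  decide +kernel

theorem swap_mem_range : (Equiv.sumComm (Fin 5) (Fin 5) : Equiv.Perm _) ∈ (frame.permX e).range := by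
  obtain ⟨k, hk⟩ := frame.exists_perm_eq ⟨_, swap_data.1⟩ ⟨_, swap_data.2.1⟩ ⟨_, swap_data.2.2.1⟩
  refine ⟨k, permX_eq fun i => ?_⟩
  rw [hk i, e_comm i]
  exact swap_data.2.2.2 i

theorem left_mem_range {σ : Equiv.Perm (Fin 5)} (hσ : σ ∈ alternatingGroup (Fin 5)) :
    Equiv.Perm.sumCongr σ 1 ∈ (frame.permX e).range := by
  obtain ⟨r, hr⟩ := alt_list σ (Equiv.Perm.mem_alternatingGroup.1 hσ)
  obtain ⟨h0, h1, h2, h3⟩ := alt_data r
  obtain ⟨k, hk⟩ := frame.exists_perm_eq ⟨_, h0⟩ ⟨_, h1⟩ ⟨_, h2⟩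
  refine ⟨k, permX_eq fun i => (hk i).trans ((h3 i).trans ?_)⟩
  obtain ⟨x, rfl⟩ := e.symm.surjective i
  rcases x with a | a
  · have ha : (e.symm (Sum.inl a : Fin 5 ⊕ Fin 5)).val = a.val := rfl
    rw [if_pos (show (e.symm (Sum.inl a : Fin 5 ⊕ Fin 5)).val < 5 by rw [ha]; exact a.2), ha,
      Equiv.apply_symm_apply]
    exact (hr a).symm
  · have ha : (e.symm (Sum.inr a : Fin 5 ⊕ Fin 5)).val = 5 + a.val := rfl
    rw [if_neg (show ¬ (e.symm (Sum.inr a : Fin 5 ⊕ Fin 5)).val < 5 by rw [ha]; omega),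
      Equiv.apply_symm_apply]
    rfl

theorem hsurj : alternatingFiveWreathTwo ≤ (frame.permX e).range := by
  refine (Subgroup.closure_le _).2 ?_
  rintro g (⟨σ, τ, rfl⟩ | rfl)
  · have h : Equiv.Perm.sumCongr (σ : Equiv.Perm (Fin 5)) (τ : Equiv.Perm (Fin 5)) =
        Equiv.Perm.sumCongr (σ : Equiv.Perm (Fin 5)) 1 * (Equiv.sumComm (Fin 5) (Fin 5) *
          Equiv.Perm.sumCongr (τ : Equiv.Perm (Fin 5)) 1 * Equiv.sumComm (Fin 5) (Fin 5)) := by
      refine Equiv.ext fun x => ?_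
      rcases x with a | a <;> rfl
    rw [SetLike.mem_coe, h]
    exact mul_mem (left_mem_range σ.2)
      (mul_mem (mul_mem swap_mem_range (left_mem_range τ.2)) swap_mem_range)
  · exact swap_mem_range

/-! ### No normal 2-subgroup -/

/-- The pairs of permutations. -/
def pair : alternatingGroup (Fin 5) × alternatingGroup (Fin 5) →* Equiv.Perm (Fin 5 ⊕ Fin 5) where
  toFun a := Equiv.Perm.sumCongr (a.1 : Equiv.Perm (Fin 5)) (a.2 : Equiv.Perm (Fin 5))
  map_one' := Equiv.Perm.sumCongr_one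
  map_mul' a b := (Equiv.Perm.sumCongr_mul _ _ _ _).symm

theorem pair_mem (a : alternatingGroup (Fin 5) × alternatingGroup (Fin 5)) :
    pair a ∈ alternatingFiveWreathTwo := sumCongr_mem a.1.2 a.2.2

theorem pair_injective : Function.Injective pair := fun a b h => by
  have h1 := fun x => congrArg (fun π : Equiv.Perm (Fin 5 ⊕ Fin 5) => π (Sum.inl x)) h
  have h2 := fun x => congrArg (fun π : Equiv.Perm (Fin 5 ⊕ Fin 5) => π (Sum.inr x)) h
  exact Prod.ext (Subtype.ext (Equiv.ext fun x => Sum.inl.inj (h1 x)))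
    (Subtype.ext (Equiv.ext fun x => Sum.inr.inj (h2 x)))

theorem conj_swap (a : alternatingGroup (Fin 5) × alternatingGroup (Fin 5)) :
    (Equiv.sumComm (Fin 5) (Fin 5) : Equiv.Perm _) * pair a *
      (Equiv.sumComm (Fin 5) (Fin 5) : Equiv.Perm _)⁻¹ = pair (a.2, a.1) := by
  refine Equiv.ext fun x => ?_
  rcases x with b | b <;> rfl

theorem normalizes {g : Equiv.Perm (Fin 5 ⊕ Fin 5)} (hg : g ∈ alternatingFiveWreathTwo) :
    ∀ a, g * pair a * g⁻¹ ∈ pair.range ∧ g⁻¹ * pair a * g ∈ pair.range := by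
  induction hg using Subgroup.closure_induction with
  | mem g hg =>
    intro a
    rcases hg with ⟨σ, τ, rfl⟩ | rfl
    · have : Equiv.Perm.sumCongr (σ : Equiv.Perm (Fin 5)) (τ : Equiv.Perm (Fin 5)) = pair (σ, τ) := rfl
      rw [this, ← map_inv, ← map_mul, ← map_mul, ← map_mul, ← map_mul]
      exact ⟨⟨_, rfl⟩, ⟨_, rfl⟩⟩
    · have hinv : (Equiv.sumComm (Fin 5) (Fin 5) : Equiv.Perm _)⁻¹ =
          (Equiv.sumComm (Fin 5) (Fin 5) : Equiv.Perm _) := Equiv.ext fun x => by
        rcases x with b | b <;> rfl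
      have h := conj_swap a
      rw [hinv] at h ⊢
      exact ⟨⟨_, h.symm⟩, ⟨_, h.symm⟩⟩
  | one => intro a; simp
  | mul g h _ _ ih ih' =>
    intro a
    constructor
    · obtain ⟨b, hb⟩ := (ih' a).1
      rw [show g * h * pair a * (g * h)⁻¹ = g * (h * pair a * h⁻¹) * g⁻¹ by group, ← hb]
      exact (ih b).1
    · obtain ⟨b, hb⟩ := (ih a).2
      rw [show (g * h)⁻¹ * pair a * (g * h) = h⁻¹ * (g⁻¹ * pair a * g) * h by group, ← hb]
      exact (ih' b).2
  | inv g _ ih => intro a; rw [inv_inv]; exact ⟨(ih a).2, (ih a).1⟩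

theorem no_two_alt (N : Subgroup (alternatingGroup (Fin 5))) (hN : N.Normal) (h2 : IsPGroup 2 N) :
    N = ⊥ := by
  rcases hN.eq_bot_or_eq_top with h | h
  · exact h
  exfalso
  subst h
  haveI : Fact (Nat.Prime 3) := ⟨by norm_num⟩
  haveI : Fact (Nat.Prime 2) := ⟨Nat.prime_two⟩
  obtain ⟨n, hn⟩ := IsPGroup.iff_card.1 h2
  have hc : Nat.card (alternatingGroup (Fin 5)) = 60 := by
    rw [nat_card_alternatingGroup, Nat.card_fin]; rfl
  rw [Subgroup.card_top, hc] at hn
  have : (3 : ℕ) ∣ 2 ^ n := hn ▸ (by norm_num)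
  have := (Nat.prime_dvd_prime_iff_eq (by norm_num) Nat.prime_two).1
    ((by norm_num : Nat.Prime 3).dvd_of_dvd_pow this)
  omega

theorem centralizer_trivial : ∀ σ : Equiv.Perm (Fin 5),
    (∀ τ : Equiv.Perm (Fin 5), Equiv.Perm.sign τ = 1 → σ * τ = τ * σ) → σ = 1 := by
  decide +kernel

theorem moves : ∀ x : Fin 5, ∃ τ : Equiv.Perm (Fin 5), Equiv.Perm.sign τ = 1 ∧ τ x ≠ x := by
  decide +kernel

theorem no_two (N : Subgroup alternatingFiveWreathTwo) (hN : N.Normal) (h2 : IsPGroup 2 N) :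
    N = ⊥ := by
  let j : alternatingGroup (Fin 5) × alternatingGroup (Fin 5) →* alternatingFiveWreathTwo :=
    pair.codRestrict _ pair_mem
  have hj : Function.Injective j := fun a b h => pair_injective (congrArg Subtype.val h)
  haveI := hN
  set P := N.comap j with hP
  have hP2 : IsPGroup 2 P := h2.comap_of_injective j hj
  have hPn : P.Normal := inferInstance
  have hfst : P.map (MonoidHom.fst _ _) = ⊥ :=
    no_two_alt _ (hPn.map _ fun a => ⟨(a, 1), rfl⟩) (hP2.map _)
  have hsnd : P.map (MonoidHom.snd _ _) = ⊥ :=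
    no_two_alt _ (hPn.map _ fun a => ⟨(1, a), rfl⟩) (hP2.map _)
  have htriv : ∀ a, j a ∈ N → a = 1 := fun a ha => by
    refine Prod.ext ?_ ?_
    · exact (Subgroup.mem_bot).1 (hfst ▸ ⟨a, ha, rfl⟩)
    · exact (Subgroup.mem_bot).1 (hsnd ▸ ⟨a, ha, rfl⟩)
  rw [eq_bot_iff]
  intro n hn
  rw [Subgroup.mem_bot]
  have hcomm : ∀ a, (n : Equiv.Perm (Fin 5 ⊕ Fin 5)) * pair a = pair a * n := by
    intro a
    obtain ⟨b, hb⟩ := (normalizes n.2 a).1
    have h1 : n * j a * n⁻¹ * (j a)⁻¹ ∈ N := by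
      rw [mul_assoc, mul_assoc]
      refine N.mul_mem hn ?_
      rw [← mul_assoc]
      exact hN.conj_mem _ (N.inv_mem hn) _
    have h2 : n * j a * n⁻¹ * (j a)⁻¹ = j (b * a⁻¹) := by
      rw [map_mul, map_inv]
      congr 1
      exact Subtype.ext hb.symm
    rw [h2] at h1
    rw [mul_inv_eq_one.1 (htriv _ h1)] at hb
    exact (mul_inv_eq_iff_eq_mul.1 hb.symm)
  set π := (n : Equiv.Perm (Fin 5 ⊕ Fin 5)) with hπ
  have hl : ∀ x, ∃ y, π (Sum.inl x) = Sum.inl y := by
    intro x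
    rcases h : π (Sum.inl x) with y | y
    · exact ⟨y, rfl⟩
    exfalso
    obtain ⟨τ, hτ, hne⟩ := moves x
    have e := congrArg (fun f : Equiv.Perm (Fin 5 ⊕ Fin 5) => f (Sum.inl x)) (hcomm (⟨τ, Equiv.Perm.mem_alternatingGroup.2 hτ⟩, 1))
    simp only [Equiv.Perm.mul_apply, h] at e
    have e2 : π (Sum.inl (τ x)) = π (Sum.inl x) := by rw [h]; exact e
    exact hne (Sum.inl.inj (π.injective e2))
  have hr : ∀ x, ∃ y, π (Sum.inr x) = Sum.inr y := by
    intro x
    rcases h : π (Sum.inr x) with y | y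
    swap
    · exact ⟨y, rfl⟩
    exfalso
    obtain ⟨τ, hτ, hne⟩ := moves x
    have e := congrArg (fun f : Equiv.Perm (Fin 5 ⊕ Fin 5) => f (Sum.inr x)) (hcomm (1, ⟨τ, Equiv.Perm.mem_alternatingGroup.2 hτ⟩))
    simp only [Equiv.Perm.mul_apply, h] at e
    have e2 : π (Sum.inr (τ x)) = π (Sum.inr x) := by rw [h]; exact e
    exact hne (Sum.inr.inj (π.injective e2))
  choose f hf using hl
  choose g hg using hr
  have finj : Function.Injective f := fun a b h => Sum.inl.inj (π.injective (by rw [hf, hf, h]))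
  have ginj : Function.Injective g := fun a b h => Sum.inr.inj (π.injective (by rw [hg, hg, h]))
  have e1 : Equiv.ofBijective f (Finite.injective_iff_bijective.1 finj) = 1 := by
    refine centralizer_trivial _ fun τ hτ => Equiv.ext fun x => ?_
    have e := congrArg (fun u : Equiv.Perm (Fin 5 ⊕ Fin 5) => u (Sum.inl x)) (hcomm (⟨τ, Equiv.Perm.mem_alternatingGroup.2 hτ⟩, 1))
    simp only [Equiv.Perm.mul_apply, hf] at e
    change π (Sum.inl (τ x)) = Sum.inl (τ (f x)) at e
    rw [hf] at e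
    exact Sum.inl.inj e
  have e2 : Equiv.ofBijective g (Finite.injective_iff_bijective.1 ginj) = 1 := by
    refine centralizer_trivial _ fun τ hτ => Equiv.ext fun x => ?_
    have e := congrArg (fun u : Equiv.Perm (Fin 5 ⊕ Fin 5) => u (Sum.inr x)) (hcomm (1, ⟨τ, Equiv.Perm.mem_alternatingGroup.2 hτ⟩))
    simp only [Equiv.Perm.mul_apply, hg] at e
    change π (Sum.inr (τ x)) = Sum.inr (τ (g x)) at e
    rw [hg] at e
    exact Sum.inr.inj e
  refine Subtype.ext (Equiv.ext fun x => ?_)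
  rcases x with a | a
  · show π _ = _
    rw [hf, show f a = a from congrArg (fun u : Equiv.Perm (Fin 5) => u a) e1]
    rfl
  · show π _ = _
    rw [hg, show g a = a from congrArg (fun u : Equiv.Perm (Fin 5) => u a) e2]
    rfl

/-- The lattice side. -/
noncomputable def model : Model alternatingFiveWreathTwo :=
  frame.model e alternatingFiveWreathTwo hgen hsurj no_two

end Cfsg.Agent.H18.Monster.Prime.Five
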