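import Cfsg.Agent.H18.Monster.Prime.Frame

/-!
The action of the centralizer on the subspaces of the tables, and the resulting lattice side.
-/

set_option autoImplicit false

namespace Cfsg.Agent.H18.Monster.Prime

open Cfsg Cfsg.Agent.H14 Finset
open Cfsg.Agent.H18.Monster.Held (pt pf idx_pt pt_idx isWord word_of_test test_of_word dot_toVec
  actL act_matAut preserves mem_M24_of_preserves)

namespace Frame

variable (F : Frame)

/-! ### The permutations of the subspaces -/

/-- A basis code. -/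
def bC (i : Fin F.N) (l : Fin F.D) : Fin F.O.n → ZMod 2 :=
  bitsN F.O.n ((F.bas.getD i.val []).getD l.val 0)

/-- Membership in a subspace. -/
def InSub (i : Fin F.N) (c : Fin F.O.n → ZMod 2) : Prop :=
  ∃ s : Fin F.D → ZMod 2, combC F.O.n F.D (F.bas.getD i.val []) s = c

theorem inSub_bas (i : Fin F.N) (l : Fin F.D) : F.InSub i (F.bC i l) := by
  refine ⟨fun j => if j = l then 1 else 0, funext fun a => ?_⟩
  rw [combC, Fintype.sum_eq_single l fun j hj => by rw [if_neg hj, zero_mul], if_pos rfl, one_mul]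
  rfl

theorem comb_eq (i : Fin F.N) (s : Fin F.D → ZMod 2) :
    combC F.O.n F.D (F.bas.getD i.val []) s = ∑ l, s l • F.bC i l := by
  funext a
  simp only [combC, Finset.sum_apply, Pi.smul_apply, smul_eq_mul, bC]

/-- A subspace goes into a subspace. -/
def MapsInto (k : Co0) (i j : Fin F.N) : Prop := ∀ l, F.InSub j (F.mu k (F.bC i l))

variable {F}

theorem MapsInto.inSub {k : Co0} {i j : Fin F.N} (h : F.MapsInto k i j)
    {c : Fin F.O.n → ZMod 2} (hc : F.InSub i c) : F.InSub j (F.mu k c) := by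
  obtain ⟨s, rfl⟩ := hc
  choose u hu using h
  refine ⟨∑ l, s l • u l, ?_⟩
  rw [comb_eq, comb_eq, map_sum]
  simp only [F.mu_zmod, ← hu, comb_eq, smul_sum, Finset.sum_apply, Pi.smul_apply, sum_smul,
    smul_smul, smul_eq_mul]
  exact sum_comm

theorem MapsInto.mul {k l : Co0} (hl : l ∈ F.K) {i j r : Fin F.N} (h2 : F.MapsInto k j r)
    (h1 : F.MapsInto l i j) : F.MapsInto (k * l) i r := fun a => by
  rw [F.mu_mul hl]; exact h2.inSub (h1 a)

variable (F)

theorem mapsInto_id {k : Co0} (h : ∀ c, F.mu k c = c) (i : Fin F.N) : F.MapsInto k i i :=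
  fun l => by rw [h]; exact F.inSub_bas i l

theorem mapsInto_gen (g : Fin (1 + F.NT + F.NW)) (i : Fin F.N) :
    F.MapsInto (F.gen g.val) i
      ⟨(F.permG.getD g.val []).getD i.val 0, (F.perm_ok g i).1⟩ := fun l => by
  rw [F.mu_gen]; exact (F.perm_ok g i).2 l

theorem mapsInto_word : ∀ (w : List ℕ), (∀ g ∈ w, g < 1 + F.NT + F.NW) → ∀ i : Fin F.N,
    ∃ j : Fin F.N, j.val = w.foldr (fun g x => (F.permG.getD g []).getD x 0) i.val ∧
      F.MapsInto (F.wordElt w) i j
  | [], _, i => ⟨i, rfl, F.mapsInto_id F.mu_one i⟩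
  | g :: w, hw, i => by
    obtain ⟨j, hj, h⟩ := mapsInto_word w (fun a ha => hw a (List.mem_cons_of_mem _ ha)) i
    refine ⟨_, ?_, (F.mapsInto_gen ⟨g, hw g (List.mem_cons_self ..)⟩ j).mul (F.wordElt_mem w) h⟩
    simp only [List.foldr_cons, hj]

theorem mu_pow (m : ℕ) (c : Fin F.O.n → ZMod 2) : F.mu (F.σ ^ m) c = c := by
  induction m with
  | zero => rw [pow_zero, F.mu_one]
  | succ m ih => rw [pow_succ', F.mu_mul (pow_mem F.σ_mem m), ih, F.mu_σ]

theorem gen_T (t : Fin F.NT) : F.gen (1 + t.val) = F.genT t := by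
  rw [gen, if_neg (by omega), dif_pos (by omega)]
  congr 1; ext; simp

theorem gen_W (n : Fin F.NW) : F.gen (1 + F.NT + n.val) = F.genW n := by
  have h : (1 + F.NT + n.val) - 1 - F.NT = n.val := by omega
  rw [gen, if_neg (by omega), dif_neg (by omega), dif_pos (by omega)]
  congr 1; ext; exact h

theorem mapsInto_split (c : Fin F.S.length) (m : ℕ) (n : Fin F.NW) (t : Fin F.NT) (i : Fin F.N) :
    ∃ j : Fin F.N, j.val = (F.permC.getD c.val []).getD ((F.permG.getD (1 + F.NT + n.val) []).getD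
        ((F.permG.getD (1 + t.val) []).getD i.val 0) 0) 0 ∧
      F.MapsInto (F.wordElt (F.words.getD c.val []) * F.σ ^ m * F.genW n * F.genT t) i j := by
  have ht := F.mapsInto_gen ⟨1 + t.val, by omega⟩ i
  have hn := F.mapsInto_gen ⟨1 + F.NT + n.val, by omega⟩
    ⟨_, (F.perm_ok ⟨1 + t.val, by omega⟩ i).1⟩
  obtain ⟨j, hj, hw⟩ := F.mapsInto_word _ (F.word_ok c).1
    ⟨_, (F.perm_ok ⟨1 + F.NT + n.val, by omega⟩ ⟨_, (F.perm_ok ⟨1 + t.val, by omega⟩ i).1⟩).1⟩
  rw [F.gen_T] at ht
  rw [F.gen_W] at hn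
  rw [← F.permC_ok c] at hj
  refine ⟨j, hj, ?_⟩
  exact ((hw.mul (pow_mem F.σ_mem m) (F.mapsInto_id (F.mu_pow m) _)).mul (F.genW_mem n) hn).mul
    (F.genT_mem t) ht

theorem exists_maps (k : F.K) (i : Fin F.N) : ∃ j, F.MapsInto (k : Co0) i j := by
  obtain ⟨c, m, n, t, e⟩ := F.exists_split k.2
  obtain ⟨j, -, hj⟩ := F.mapsInto_split c m n t i
  exact ⟨j, e ▸ hj⟩

/-- The image of a subspace. -/
noncomputable def img (k : F.K) (i : Fin F.N) : Fin F.N := (F.exists_maps k i).choose

theorem img_spec (k : F.K) (i : Fin F.N) : F.MapsInto (k : Co0) i (F.img k i) :=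
  (F.exists_maps k i).choose_spec

theorem eq_of_id {i j : Fin F.N} {k : Co0} (h : ∀ c, F.mu k c = c) (hm : F.MapsInto k i j) :
    i = j := by
  refine F.bas_inj i j fun l => ?_
  obtain ⟨s, hs⟩ := hm l
  exact ⟨s, by rw [hs, h]; rfl⟩

theorem img_unique {k : F.K} {i j : Fin F.N} (h : F.MapsInto (k : Co0) i j) : F.img k i = j := by
  have hid : ∀ c, F.mu (1 : Co0) c = c := F.mu_one
  obtain ⟨r, hr⟩ := F.exists_maps k⁻¹ (F.img k i)
  obtain ⟨r', hr'⟩ := F.exists_maps k⁻¹ j
  have h1 : F.MapsInto 1 i r := by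
    have := hr.mul k.2 (F.img_spec k i); rwa [Subgroup.coe_inv, inv_mul_cancel] at this
  have h1' : F.MapsInto 1 i r' := by
    have := hr'.mul k.2 h; rwa [Subgroup.coe_inv, inv_mul_cancel] at this
  obtain rfl := F.eq_of_id hid h1
  obtain rfl := F.eq_of_id hid h1'
  obtain ⟨a, ha⟩ := F.exists_maps k i
  have h2 : F.MapsInto 1 (F.img k i) a := by
    have := ha.mul (k⁻¹).2 hr; rwa [Subgroup.coe_inv, mul_inv_cancel] at this
  have h2' : F.MapsInto 1 j a := by
    have := ha.mul (k⁻¹).2 hr'; rwa [Subgroup.coe_inv, mul_inv_cancel] at this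
  rw [F.eq_of_id hid h2, F.eq_of_id hid h2']

/-- The permutation of the subspaces. -/
noncomputable def perm : F.K →* Equiv.Perm (Fin F.N) :=
  MonoidHom.toHomUnits
    { toFun := fun k => (F.img k : Function.End (Fin F.N))
      map_one' := funext fun i => F.img_unique (F.mapsInto_id F.mu_one i)
      map_mul' := fun k l => funext fun i =>
        F.img_unique ((F.img_spec k (F.img l i)).mul l.2 (F.img_spec l i)) } |>
    (Equiv.Perm.equivUnitsEnd (α := Fin F.N)).symm.toMonoidHom.comp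

theorem perm_apply (k : F.K) (i : Fin F.N) : F.perm k i = F.img k i := rfl

theorem perm_of_maps {k : F.K} {i j : Fin F.N} (h : F.MapsInto (k : Co0) i j) : F.perm k i = j :=
  (F.perm_apply k i).trans (F.img_unique h)

theorem perm_eq_one_of_mu {k : F.K} (h : ∀ c, F.mu (k : Co0) c = c) : F.perm k = 1 :=
  Equiv.ext fun i => F.perm_of_maps (F.mapsInto_id h i)

theorem perm_gen (g : Fin (1 + F.NT + F.NW)) (i : Fin F.N) :
    (F.perm ⟨F.gen g.val, F.gen_mem _⟩ i).val = (F.permG.getD g.val []).getD i.val 0 :=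
  congrArg Fin.val (F.perm_of_maps (k := ⟨F.gen g.val, F.gen_mem _⟩) (F.mapsInto_gen g i))

theorem perm_ker (k : F.K) : F.perm k = 1 ↔
    ∃ m : ℕ, (k : Co0) = F.σ ^ m ∨ (k : Co0) = negOne * F.σ ^ m := by
  constructor
  · intro h
    obtain ⟨c, m, n, t, e⟩ := F.exists_split k.2
    have hfix : ∀ i : Fin F.N, (F.permC.getD c.val []).getD ((F.permG.getD (1 + F.NT + n.val) []).getD
        ((F.permG.getD (1 + t.val) []).getD i.val 0) 0) 0 = i.val := by
      intro i
      obtain ⟨j, hj, hm⟩ := F.mapsInto_split c m n t i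
      rw [← e] at hm
      rw [← hj, ← F.perm_of_maps hm, h]
      rfl
    obtain ⟨⟨hc0, ht0⟩, hn0⟩ := F.ker_ok c n t hfix
    rw [hc0, F.word_zero] at e
    have hT : F.genT t = 1 := act_eq_of_forall fun x hx => by
      rw [genT, act_monoAut _ _ hx, one_act]
      funext q
      have : (F.tau t).symm q = q := H15.idx_injective (by
        rw [F.idx_tau_symm, ht0, F.tau_zero.2, range_idx])
      simp [signFun, permFun, natWord_zero, this]
    rw [hT, mul_one, show F.wordElt [] = 1 from rfl, one_mul] at e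
    refine ⟨m, ?_⟩
    rcases hn0 with hn0 | hn0
    · left
      have hW : F.genW n = 1 := act_eq_of_forall fun x hx => by
        rw [genW, act_monoAut _ _ hx, one_act]
        funext q
        show (if (if (F.fwL.getD n.val 0).testBit (H15.idx q) = true then (1 : ZMod 2) else 0) = 0
          then x q else -x q) = x q
        rw [hn0, F.fw_ends.2.1, Nat.zero_testBit]
        simp
      rw [e, hW, mul_one]
    · right
      have hW : F.genW n = negOne := act_eq_of_forall fun x hx => by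
        rw [genW, act_monoAut _ _ hx, act_negOne hx]
        funext q
        have hb : (2 ^ 24 - 1).testBit (H15.idx q) = true := by
          rw [Nat.testBit_two_pow_sub_one]; simpa using H15.idx_lt q
        show (if (if (F.fwL.getD n.val 0).testBit (H15.idx q) = true then (1 : ZMod 2) else 0) = 0
          then x q else -x q) = -x q
        rw [hn0, F.fw_ends.2.2, hb]
        simp
      rw [e, hW]
      exact Subgroup.mem_center_iff.1 negOne_mem_center _
  · rintro ⟨m, h | h⟩ <;> refine F.perm_eq_one_of_mu fun c => ?_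
    · rw [h, F.mu_pow]
    · rw [h, F.mu_mul (pow_mem F.σ_mem m), F.mu_pow, F.mu_negOne]

theorem exists_perm_eq (c : Fin F.S.length) (n : Fin F.NW) (t : Fin F.NT) :
    ∃ k : F.K, ∀ i : Fin F.N, (F.perm k i).val = (F.permC.getD c.val []).getD
      ((F.permG.getD (1 + F.NT + n.val) []).getD ((F.permG.getD (1 + t.val) []).getD i.val 0) 0) 0 := by
  obtain ⟨k, hk⟩ : ∃ k : F.K, (k : Co0) =
      F.wordElt (F.words.getD c.val []) * F.σ ^ 0 * F.genW n * F.genT t :=
    ⟨⟨_, mul_mem (mul_mem (mul_mem (F.wordElt_mem _) (pow_mem F.σ_mem 0)) (F.genW_mem n))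
      (F.genT_mem t)⟩, rfl⟩
  refine ⟨k, fun i => ?_⟩
  obtain ⟨j, hj, hm⟩ := F.mapsInto_split c 0 n t i
  rw [← hk] at hm
  exact (congrArg Fin.val (F.perm_of_maps hm)).trans hj

/-- The permutations of a set numbered by the subspaces. -/
noncomputable def permX {X : Type} (e : Fin F.N ≃ X) : F.K →* Equiv.Perm X :=
  e.permCongrHom.toMonoidHom.comp F.perm

theorem permX_mem {X : Type} (e : Fin F.N ≃ X) (T : Subgroup (Equiv.Perm X))
    (hgen : ∀ g : Fin (1 + F.NT + F.NW), ∃ π ∈ T, ∀ i : Fin F.N,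
      (e.symm (π (e i))).val = (F.permG.getD g.val []).getD i.val 0) (k : F.K) :
    F.permX e k ∈ T := by
  have hg : ∀ g : Fin (1 + F.NT + F.NW), F.permX e ⟨F.gen g.val, F.gen_mem _⟩ ∈ T := by
    intro g
    obtain ⟨π, hπ, h⟩ := hgen g
    convert hπ using 1
    refine Equiv.ext fun x => ?_
    obtain ⟨i, rfl⟩ := e.surjective x
    have e' : F.perm ⟨F.gen g.val, F.gen_mem _⟩ i = e.symm (π (e i)) :=
      Fin.ext (by rw [F.perm_gen, h])
    show e (F.perm _ (e.symm (e i))) = _
    rw [Equiv.symm_apply_apply, e', Equiv.apply_symm_apply]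
  have hw : ∀ w : List ℕ, (∀ g ∈ w, g < 1 + F.NT + F.NW) →
      F.permX e ⟨F.wordElt w, F.wordElt_mem w⟩ ∈ T := by
    intro w hw
    induction w with
    | nil => rw [show (⟨F.wordElt [], F.wordElt_mem []⟩ : F.K) = 1 from rfl, map_one]; exact one_mem _
    | cons g w ih =>
      rw [show (⟨F.wordElt (g :: w), F.wordElt_mem _⟩ : F.K) =
        ⟨F.gen g, F.gen_mem g⟩ * ⟨F.wordElt w, F.wordElt_mem w⟩ from rfl, map_mul]
      exact mul_mem (hg ⟨g, hw g (List.mem_cons_self ..)⟩)
        (ih fun a ha => hw a (List.mem_cons_of_mem _ ha))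
  obtain ⟨c, m, n, t, h⟩ := F.exists_split k.2
  have hk : k = ⟨_, F.wordElt_mem (F.words.getD c.val [])⟩ * (⟨F.σ, F.σ_mem⟩ : F.K) ^ m *
      ⟨_, F.gen_mem (1 + F.NT + n.val)⟩ * ⟨_, F.gen_mem (1 + t.val)⟩ := by
    apply Subtype.ext
    simp only [Subgroup.coe_mul, SubmonoidClass.coe_pow, F.gen_T, F.gen_W]
    exact h
  have hσ : F.permX e ⟨F.σ, F.σ_mem⟩ = 1 := by
    show e.permCongrHom (F.perm _) = 1
    rw [F.perm_eq_one_of_mu (k := ⟨F.σ, F.σ_mem⟩) F.mu_σ, map_one]
  rw [hk, map_mul, map_mul, map_mul, map_pow, hσ, one_pow, mul_one]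
  exact mul_mem (mul_mem (hw _ (F.word_ok c).1) (hg ⟨_, by omega⟩)) (hg ⟨_, by omega⟩)

/-- The map onto a group of permutations. -/
noncomputable def permT {X : Type} (e : Fin F.N ≃ X) (T : Subgroup (Equiv.Perm X))
    (hgen : ∀ g : Fin (1 + F.NT + F.NW), ∃ π ∈ T, ∀ i : Fin F.N,
      (e.symm (π (e i))).val = (F.permG.getD g.val []).getD i.val 0) :
    Subgroup.centralizer ({permAut F.O.π F.O.mem} : Set Co0) →* T :=
  (F.permX e).codRestrict T (F.permX_mem e T hgen)

section

variable {X : Type} (e : Fin F.N ≃ X) (T : Subgroup (Equiv.Perm X))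
  (hgen : ∀ g : Fin (1 + F.NT + F.NW), ∃ π ∈ T, ∀ i : Fin F.N,
    (e.symm (π (e i))).val = (F.permG.getD g.val []).getD i.val 0)

theorem permT_surj (hsurj : T ≤ (F.permX e).range) : Function.Surjective (F.permT e T hgen) := by
  intro x
  obtain ⟨k, hk⟩ := hsurj x.2
  exact ⟨k, Subtype.ext hk⟩

theorem permT_ker (k : Subgroup.centralizer ({permAut F.O.π F.O.mem} : Set Co0)) :
    F.permT e T hgen k = 1 ↔ ∃ m : ℕ, (k : Co0) = permAut F.O.π F.O.mem ^ m ∨
      (k : Co0) = negOne * permAut F.O.π F.O.mem ^ m := by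
  have h : F.permT e T hgen k = 1 ↔ F.perm k = 1 :=
    Subtype.ext_iff.trans (map_eq_one_iff (e.permCongrHom) e.permCongrHom.injective)
  exact h.trans (F.perm_ker k)

theorem permT_faithful (k : Subgroup.centralizer ({permAut F.O.π F.O.mem} : Set Co0))
    (hk : ∀ c, F.code (act (k : Co0) (F.rep c)) = c) : F.permT e T hgen k = 1 := by
  apply Subtype.ext
  show e.permCongrHom (F.perm k) = 1
  rw [F.perm_eq_one_of_mu (k := k) hk, map_one]

end

/-- The lattice side from the tables. -/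
noncomputable def model {X : Type} (e : Fin F.N ≃ X) (T : Subgroup (Equiv.Perm X))
    (hgen : ∀ g : Fin (1 + F.NT + F.NW), ∃ π ∈ T, ∀ i : Fin F.N,
      (e.symm (π (e i))).val = (F.permG.getD g.val []).getD i.val 0)
    (hsurj : T ≤ (F.permX e).range)
    (no_two : ∀ N : Subgroup T, N.Normal → IsPGroup 2 N → N = ⊥) : Model T where
  p := F.p
  prime := F.prime
  odd := F.odd
  π := F.O.π
  hπ := F.O.mem
  pow_eq := F.pow_eq
  n := F.O.n
  code := F.code
  code_add := fun hx hy => F.code_add hx hy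
  ker := fun hv h => F.ker hv h
  rep := F.rep
  fixV_rep := F.fixV_rep
  code_rep := F.code_rep
  pairing := F.pairing
  mark := bitsN F.O.n (F.S.getD 0 0)
  markVec := eight oo
  isLeech_markVec := isLeech_eight oo
  sqNorm_markVec := sqNorm_eight oo
  mark_congr := F.eight_congr
  φ := F.permT e T hgen
  φ_surj := F.permT_surj e T hgen hsurj
  φ_ker := F.permT_ker e T hgen
  faithful := F.permT_faithful e T hgen
  no_two := no_two

end Frame

end Cfsg.Agent.H18.Monster.Prime
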