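import Cfsg.Agent.H18.Monster.Prime.FiveData
import Cfsg.Agent.H18.Monster.Prime.FramePerm

/-!
The tables for the code permutation of cycle type `1^4 5^4`: the centralizer of its lift to the automorphism group
of the Leech lattice acts on ten subspaces of the fixed sublattice modulo two as the wreath product
of the alternating group of degree 5 by a group of order 2.
-/

set_option autoImplicit false
set_option maxRecDepth 100000

namespace Cfsg.Agent.H18.Monster.Prime.Five

open Cfsg Cfsg.Agent.H14 Cfsg.Agent.H18.Monster.Prime.FiveData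
open Cfsg.Agent.H18.Monster.Held (pt pf preserves mem_M24_of_preserves)

theorem img_inv : (∀ q, pf imgI (pf img q) = q) ∧ ∀ q, pf img (pf imgI q) = q := by decide +kernel

/-- The permutation. -/
noncomputable def sig : Equiv.Perm GolayPt := ⟨pf img, pf imgI, img_inv.1, img_inv.2⟩

theorem idx_sig : (∀ q, H15.idx (pf img q) = img.getD (H15.idx q) 0) ∧
    (∀ q, H15.idx (pf imgI q) = imgI.getD (H15.idx q) 0) ∧ preserves imgI = true := by decide +kernel

theorem sig_mem : sig ∈ M24 := mem_M24_of_preserves idx_sig.2.1 idx_sig.2.2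

theorem sig_pow_five : sig ^ 5 = 1 := by
  ext q : 1
  revert q
  decide +kernel

theorem orb_spec : ∀ q, q = (sig ^ pos.getD (H15.idx q) 0) (pt (orbRep.getD (lab.getD (H15.idx q) 0) 0)) := by
  decide +kernel

theorem lab_ok : (∀ q : GolayPt, lab.getD (H15.idx q) 0 < 8) ∧
    (∀ q, lab.getD (H15.idx (sig q)) 0 = lab.getD (H15.idx q) 0) ∧
    (∀ k : Fin 8, lab.getD (orbRep.getD k.val 0) 0 = k.val) ∧
    ∀ k : Fin 8, orbRep.getD k.val 0 < 24 := by decide +kernel

/-- The permutation with its orbits. -/
noncomputable def orb : Orb where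
  π := sig
  mem := sig_mem
  img := img
  n := 8
  lab := lab
  pos := pos
  rep := orbRep
  idx_π := idx_sig.1
  spec := orb_spec
  lab_lt := lab_ok.1
  lab_π := lab_ok.2.1
  lab_rep := lab_ok.2.2.1
  rep_lt := lab_ok.2.2.2

theorem fy_ok : ∀ i : Fin 8, fixTest img (fL.getD i.val []) = true ∧
    (H15.leechOk (yL.getD i.val []) = true ∧ (yL.getD i.val []).length = 24) ∧
    ∀ j : Fin 8, H15.listDot (yL.getD i.val []) (fL.getD j.val []) = if i = j then 8 else 0 := by
  decide +kernel

theorem U_ok : ∀ k l : Fin 8, ∑ i : Fin 8, (U.getD k.val []).getD i.val 0 *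
    ((List.range 24).map fun q => if lab.getD q 0 = l.val then
      (yL.getD i.val []).getD q 0 else 0).sum = if k = l then den else 0 := by decide +kernel

theorem rep_ok : ∀ m : Fin (2 ^ 8), fixTest img (repL.getD m.val []) = true ∧
    codeList 8 yL (repL.getD m.val []) = bitsN 8 m.val ∧
    (m.val ∈ classes ∨ H15.listDot (repL.getD m.val []) (repL.getD m.val []) ≤ 48) := by
  decide +kernel

theorem pair_ok : ∀ m : Fin (2 ^ 8), m.val ≠ 0 → ∃ d : Fin (2 ^ 8),
    ¬ (16 : ℤ) ∣ H15.listDot (repL.getD m.val []) (repL.getD d.val []) := by decide +kernel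

theorem mat_ok : mat.ok = true ∧ commTest img mat = true := by decide +kernel

theorem tau_ok : ∀ t : Fin 12, tauTest img (tauL.getD t.val []) (tauI.getD t.val []) = true := by
  decide +kernel

theorem fw_ok : (∀ n : Fin 16, wordTest img (fwL.getD n.val 0) = true) ∧
    tauI.getD 0 [] = List.range 24 ∧ fwL.getD 0 0 = 0 ∧ fwL.getD 15 0 = 2 ^ 24 - 1 := by
  decide +kernel

theorem inv_words : ∀ m : Fin (2 ^ 8),
    Held.isWord (Nat.ofBits fun q : Fin 24 => m.val.testBit (lab.getD q.val 0)) = true →
      ∃ n : Fin 16, fwL.getD n.val 0 = Nat.ofBits fun q : Fin 24 => m.val.testBit (lab.getD q.val 0) := by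
  decide +kernel

theorem sets_ok : ∀ j : Fin levels.length, orb.setsTest j.val (levels.getD j.val []) = true := by
  decide +kernel

theorem search_ok : orb.search (fun i => img.getD i 0 == i) targets levels [] = true := by
  decide +kernel

theorem targets_ok : ∀ R ∈ targets, ∃ t : Fin 12, ∃ m : Fin 5, ∀ k : Fin 8,
    R.getD k.val 0 = orb.iter m.val ((tauL.getD t.val []).getD (orbRep.getD k.val 0) 0) := by
  decide +kernel

theorem eight_ok : H15.leechOk tL = true ∧ ∀ i : Fin 24,
    (if i.val = 23 then (8 : ℤ) else 0) - (repL.getD (classes.getD 0 0) []).getD i.val 0 =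
      2 * tL.getD i.val 0 := by decide +kernel

theorem classes_ok : (∀ c ∈ classes, c < 2 ^ 8) ∧ 0 < classes.length ∧
    levels.length = 8 ∧ words.getD 0 [] = [] := by decide +kernel

theorem mu_ok : ∀ g : Fin (1 + 12 + 16), ∀ j : Fin 8,
    codeList 8 yL
      (if g.val = 0 then Held.actL mat (repL.getD (2 ^ j.val) []) else
        if g.val < 1 + 12 then monoList 0 (tauI.getD (g.val - 1) []) (repL.getD (2 ^ j.val) [])
        else monoList (fwL.getD (g.val - 1 - 12) 0) (List.range 24) (repL.getD (2 ^ j.val) [])) =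
      bitsN 8 ((muG.getD g.val []).getD j.val 0) := by decide +kernel

theorem word_ok : ∀ c : Fin classes.length, (∀ g ∈ words.getD c.val [], g < 1 + 12 + 16) ∧
    (words.getD c.val []).foldr (fun g x => linC 8 (muG.getD g []) x) (bitsN 8 (classes.getD 0 0)) =
      bitsN 8 (classes.getD c.val 0) := by decide +kernel

theorem bas_inj : ∀ i j : Fin 10, (∀ l : Fin 4, ∃ s : Fin 4 → ZMod 2,
    combC 8 4 (bas.getD j.val []) s = bitsN 8 ((bas.getD i.val []).getD l.val 0)) → i = j := by
  decide +kernel

theorem perm_ok : ∀ g : Fin (1 + 12 + 16), ∀ i : Fin 10, (permG.getD g.val []).getD i.val 0 < 10 ∧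
    ∀ l : Fin 4, ∃ s : Fin 4 → ZMod 2,
      combC 8 4 (bas.getD ((permG.getD g.val []).getD i.val 0) []) s =
        linC 8 (muG.getD g.val []) (bitsN 8 ((bas.getD i.val []).getD l.val 0)) := by decide +kernel

theorem permC_ok : ∀ c : Fin classes.length, ∀ i : Fin 10, (permC.getD c.val []).getD i.val 0 =
    (words.getD c.val []).foldr (fun g x => (permG.getD g []).getD x 0) i.val := by decide +kernel

theorem ker_bool : H15.allBelow (fun c => H15.allBelow (fun n => H15.allBelow (fun t =>
    !(H15.allBelow (fun i => (permC.getD c []).getD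
      ((permG.getD (1 + 12 + n) []).getD ((permG.getD (1 + t) []).getD i 0) 0) 0 == i) 10) ||
    ((c == 0 && t == 0) && (n == 0 || n == 16 - 1))) 12) 16) classes.length = true := by
  decide +kernel

theorem ker_ok : ∀ c : Fin classes.length, ∀ n : Fin 16, ∀ t : Fin 12,
    (∀ i : Fin 10, (permC.getD c.val []).getD
      ((permG.getD (1 + 12 + n.val) []).getD ((permG.getD (1 + t.val) []).getD i.val 0) 0) 0 = i.val) →
    (c.val = 0 ∧ t.val = 0) ∧ (n.val = 0 ∨ n.val = 16 - 1) := fun c n t h => by
  have hk := H15.allBelow_eq_true (H15.allBelow_eq_true (H15.allBelow_eq_true ker_bool c.val c.2)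
    n.val n.2) t.val t.2
  rw [Bool.or_eq_true, Bool.not_eq_true'] at hk
  rcases hk with hk | hk
  · rw [allBelow_intro fun i hi => beq_iff_eq.2 (h ⟨i, hi⟩)] at hk
    cases hk
  simpa only [Bool.and_eq_true, Bool.or_eq_true, beq_iff_eq] using hk

theorem comm_ok (π : Equiv.Perm GolayPt) (hπ : π ∈ M24) (hc : π * orb.π = orb.π * π) :
    ∃ t : Fin 12, ∃ m : Fin 5, ∀ k : Fin 8,
      H15.idx (π (orb.r k)) = orb.iter m.val ((tauL.getD t.val []).getD (orbRep.getD k.val 0) 0) := by
  have h := orb.search_spec targets hπ hc levels 0 (by rw [zero_add]; exact classes_ok.2.2.1)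
    (fun j hj => by rw [zero_add]; exact sets_ok ⟨j, hj⟩) search_ok
  obtain ⟨t, m, e⟩ := targets_ok _ h
  exact ⟨t, m, fun k => (orb.getD_imgList π k).symm.trans (e k)⟩

/-- The tables. -/
noncomputable def frame : Frame where
  O := orb
  p := 5
  prime := by norm_num
  odd := by norm_num
  pow_eq := sig_pow_five
  fL := fL
  yL := yL
  U := U
  den := den
  den_ne := by decide +kernel
  fy_ok := fy_ok
  U_ok := U_ok
  repL := repL
  S := classes
  rep_ok := rep_ok
  pair_ok := pair_ok
  mat := mat
  mat_ok := mat_ok.1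
  mat_comm := mat_ok.2
  NT := 12
  tauL := tauL
  tauI := tauI
  tau_ok := tau_ok
  tau_zero := ⟨by norm_num, fw_ok.2.1⟩
  NW := 16
  fwL := fwL
  fw_ok := fw_ok.1
  fw_ends := ⟨by norm_num, fw_ok.2.2⟩
  inv_words := inv_words
  comm_ok := comm_ok
  tL := tL
  eight_ok := eight_ok
  S_lt := classes_ok.1
  S_ne := classes_ok.2.1
  muG := muG
  mu_ok := mu_ok
  words := words
  word_ok := word_ok
  word_zero := classes_ok.2.2.2
  N := 10
  D := 4
  bas := bas
  bas_inj := bas_inj
  permG := permG
  perm_ok := perm_ok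
  permC := permC
  permC_ok := permC_ok
  ker_ok := ker_ok

end Cfsg.Agent.H18.Monster.Prime.Five
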