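import Cfsg.Agent.H14.LeechMonomial

/-!
The data needed on the side of the Leech lattice for the centralizer of an element of odd prime
order of the monomial group.
-/

set_option autoImplicit false

namespace Cfsg.Agent.H18.Monster.Prime

open Cfsg Cfsg.Agent.H14 Finset

/-- A lattice vector fixed by a permutation. -/
def FixV (π : Equiv.Perm GolayPt) (v : V) : Prop := IsLeech v ∧ permFun π v = v

theorem FixV.add {π : Equiv.Perm GolayPt} {v w : V} (hv : FixV π v) (hw : FixV π w) :
    FixV π (v + w) :=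
  ⟨hv.1.add hw.1, by rw [show permFun π (v + w) = permFun π v + permFun π w from rfl, hv.2, hw.2]⟩

theorem FixV.sub {π : Equiv.Perm GolayPt} {v w : V} (hv : FixV π v) (hw : FixV π w) :
    FixV π (v - w) :=
  ⟨hv.1.sub hw.1, by rw [show permFun π (v - w) = permFun π v - permFun π w from rfl, hv.2, hw.2]⟩

theorem FixV.zero (π : Equiv.Perm GolayPt) : FixV π 0 := ⟨isLeech_zero, rfl⟩

/-- Coordinates modulo two given by rows. -/
def codeOf {n : ℕ} (rows : Fin n → V) (v : V) : Fin n → ZMod 2 := fun i =>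
  ((dotInt (rows i) v / 8 : ℤ) : ZMod 2)

theorem codeOf_add {n : ℕ} {rows : Fin n → V} (hr : ∀ i, IsLeech (rows i)) {x y : V}
    (hx : IsLeech x) (hy : IsLeech y) : codeOf rows (x + y) = codeOf rows x + codeOf rows y := by
  funext i
  obtain ⟨a, ha⟩ := (hr i).eight_dvd_dotInt hx
  obtain ⟨b, hb⟩ := (hr i).eight_dvd_dotInt hy
  have e : dotInt (rows i) (x + y) = dotInt (rows i) x + dotInt (rows i) y := by
    simp only [dotInt, Pi.add_apply, mul_add, sum_add_distrib]
  simp only [codeOf, Pi.add_apply, e, ha, hb, ← mul_add,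
    Int.mul_ediv_cancel_left _ (by norm_num : (8 : ℤ) ≠ 0), Int.cast_add]

/-- The sum over the orbit of a permutation of odd period is a fixed vector of the same class,
when the class is fixed. -/
theorem exists_fixV {π : Equiv.Perm GolayPt} (hπ : π ∈ M24) {p : ℕ} (hp : Odd p)
    (hpow : π ^ p = 1) {x t : V} (hx : IsLeech x) (ht : IsLeech t)
    (et : permFun π x - x = 2 • t) : ∃ v u, FixV π v ∧ IsLeech u ∧ x - v = 2 • u := by
  have hn : ∀ n : ℕ, ∃ u, IsLeech u ∧ permFun (π ^ n) x - x = 2 • u := by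
    intro n
    induction n with
    | zero => exact ⟨0, isLeech_zero, by rw [smul_zero, sub_eq_zero]; rfl⟩
    | succ n ih =>
      obtain ⟨u, hu, eu⟩ := ih
      refine ⟨permFun π u + t, (hu.permFun hπ).add ht, ?_⟩
      rw [smul_add, ← et, show 2 • permFun π u = permFun π (2 • u) from rfl, ← eu, pow_succ']
      show permFun (π * π ^ n) x - x =
        (permFun π (permFun (π ^ n) x) - permFun π x) + (permFun π x - x)
      rw [show permFun (π * π ^ n) x = permFun π (permFun (π ^ n) x) from rfl]
      abel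
  choose u hu eu using hn
  have hsum : ∀ (s : Finset ℕ) (f : ℕ → V), (∀ j, IsLeech (f j)) → IsLeech (∑ j ∈ s, f j) :=
    fun s f hf => AddSubgroup.sum_mem leechAdd fun j _ => hf j
  have hfix : permFun π (∑ j ∈ range p, permFun (π ^ j) x) = ∑ j ∈ range p, permFun (π ^ j) x := by
    have e1 : permFun π (∑ j ∈ range p, permFun (π ^ j) x) =
        ∑ j ∈ range p, permFun (π ^ (j + 1)) x := by
      funext q
      show (∑ j ∈ range p, permFun (π ^ j) x) (π.symm q) = _
      simp only [Finset.sum_apply, pow_succ']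
      rfl
    have h2 := sum_range_succ' (fun j => permFun (π ^ j) x) p
    rw [sum_range_succ, hpow] at h2
    rw [e1]
    simp only [pow_zero] at h2
    exact (add_right_cancel h2).symm
  obtain ⟨m, hm⟩ := hp
  refine ⟨_, -(m • x + ∑ j ∈ range p, u j),
    ⟨hsum _ _ fun j => hx.permFun (pow_mem hπ j), hfix⟩,
    ((AddSubgroup.nsmul_mem leechAdd hx m : m • x ∈ leechAdd) : IsLeech (m • x)).add (hsum _ _ hu) |>.neg, ?_⟩
  have e3 : (∑ j ∈ range p, permFun (π ^ j) x) = ∑ j ∈ range p, (2 • u j + x) :=
    sum_congr rfl fun j _ => by rw [← eu j, sub_add_cancel]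
  rw [e3, sum_add_distrib, ← smul_sum, sum_const, card_range, hm, add_smul, one_smul, mul_smul,
    smul_neg, smul_add]
  abel

/-- The lattice side: a permutation of odd prime period, coordinates modulo two on its fixed
vectors, and a homomorphism from its centralizer onto a group without normal 2-subgroups whose
kernel consists of the powers of the permutation up to sign. -/
structure Model (T : Type) [Group T] where
  p : ℕ
  prime : p.Prime
  odd : p ≠ 2
  π : Equiv.Perm GolayPt
  hπ : π ∈ M24
  pow_eq : π ^ p = 1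
  n : ℕ
  code : V → Fin n → ZMod 2
  code_add : ∀ {x y : V}, IsLeech x → IsLeech y → code (x + y) = code x + code y
  ker : ∀ {v : V}, FixV π v → code v = 0 → ∃ t, IsLeech t ∧ v = 2 • t
  rep : (Fin n → ZMod 2) → V
  fixV_rep : ∀ c, FixV π (rep c)
  code_rep : ∀ c, code (rep c) = c
  pairing : ∀ c, c ≠ 0 → ∃ d, ¬ (16 : ℤ) ∣ dotInt (rep c) (rep d)
  mark : Fin n → ZMod 2
  markVec : V
  isLeech_markVec : IsLeech markVec
  sqNorm_markVec : sqNorm markVec = 64
  mark_congr : ∃ t, IsLeech t ∧ markVec - rep mark = 2 • t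
  φ : (Subgroup.centralizer ({permAut π hπ} : Set Co0)) →* T
  φ_surj : Function.Surjective φ
  φ_ker : ∀ k, φ k = 1 ↔ ∃ m : ℕ, (k : Co0) = permAut π hπ ^ m ∨
    (k : Co0) = negOne * permAut π hπ ^ m
  faithful : ∀ k : Subgroup.centralizer ({permAut π hπ} : Set Co0),
    (∀ c, code (act (k : Co0) (rep c)) = c) → φ k = 1
  no_two : ∀ N : Subgroup T, N.Normal → IsPGroup 2 N → N = ⊥

namespace Model

variable {T : Type} [Group T] (M : Model T)

/-- The element of the lattice group. -/
def σ : Co0 := permAut M.π M.hπ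

theorem act_σ {x : V} (hx : IsLeech x) : act M.σ x = permFun M.π x := act_permAut M.hπ hx

theorem σ_pow_eq : M.σ ^ M.p = 1 := by
  have h : ∀ n : ℕ, ∀ x, IsLeech x → act (M.σ ^ n) x = permFun (M.π ^ n) x := by
    intro n
    induction n with
    | zero => intro x _; rw [pow_zero, pow_zero, one_act]; rfl
    | succ n ih =>
      intro x hx
      rw [pow_succ', pow_succ', mul_act, ih x hx, M.act_σ (hx.permFun (pow_mem M.hπ n))]
      rfl
  refine act_eq_of_forall fun x hx => ?_
  rw [h _ x hx, M.pow_eq, one_act]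
  rfl

theorem code_two {t : V} (ht : IsLeech t) : M.code (2 • t) = 0 := by
  rw [two_nsmul, M.code_add ht ht]
  funext i
  exact CharTwo.add_self_eq_zero _

theorem code_congr {x y t : V} (hy : IsLeech y) (ht : IsLeech t) (e : x - y = 2 • t) :
    M.code x = M.code y := by
  rw [← sub_add_cancel x y, e, M.code_add (by rw [two_nsmul]; exact ht.add ht) hy, M.code_two ht,
    zero_add]

theorem congr_of_code {v w : V} (hv : FixV M.π v) (hw : FixV M.π w) (h : M.code v = M.code w) :
    ∃ t, IsLeech t ∧ v - w = 2 • t := by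
  refine M.ker (hv.sub hw) ?_
  have h1 := M.code_add (hv.sub hw).1 hw.1
  rw [sub_add_cancel, h] at h1
  exact right_eq_add.1 h1

theorem dvd_of_congr {x y u v s t : V} (hy : IsLeech y) (hu : IsLeech u) (ht : IsLeech t)
    (hs : IsLeech s) (ex : x - u = 2 • t) (ey : y - v = 2 • s)
    (h : (16 : ℤ) ∣ dotInt x y) : (16 : ℤ) ∣ dotInt u v := by
  obtain ⟨a, ha⟩ := ht.eight_dvd_dotInt hy
  obtain ⟨c, hc⟩ := hu.eight_dvd_dotInt hs
  have e1 : dotInt x y = dotInt u v + 2 * dotInt t y + 2 * dotInt u s := by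
    simp only [dotInt, mul_sum, ← sum_add_distrib]
    refine sum_congr rfl fun p _ => ?_
    have h1 := congrFun ex p
    have h2 := congrFun ey p
    simp only [Pi.sub_apply, Pi.smul_apply, nsmul_eq_mul, Nat.cast_ofNat] at h1 h2
    rw [show x p = u p + 2 * t p by linarith, show y p = v p + 2 * s p by linarith]
    ring
  omega

theorem odd_p : Odd M.p := M.prime.odd_of_ne_two M.odd

theorem negOne_pow : negOne ^ M.p = negOne := by
  obtain ⟨m, hm⟩ := M.odd_p
  have h2 : negOne ^ 2 = 1 := act_eq_of_forall fun x hx => by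
    rw [pow_two, mul_act, act_negOne hx, act_negOne hx.neg, neg_neg, one_act]
  rw [hm, pow_succ, pow_mul, h2, one_pow, one_mul]

/-- The negated element is not conjugate to the element. -/
theorem not_negated {k : Co0} : M.σ * k ≠ k * M.σ * negOne := by
  intro e
  have hz : ∀ a : Co0, a * negOne = negOne * a := Subgroup.mem_center_iff.1 negOne_mem_center
  have h1 : k⁻¹ * M.σ * k = M.σ * negOne := by
    rw [mul_assoc, e, ← mul_assoc, ← mul_assoc, inv_mul_cancel, one_mul]
  have h2 : (k⁻¹ * M.σ * k) ^ M.p = 1 := by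
    have := conj_pow (i := M.p) (a := k⁻¹) (b := M.σ)
    rw [inv_inv, M.σ_pow_eq, mul_one, inv_mul_cancel] at this
    exact this
  rw [h1, (show Commute M.σ negOne from hz M.σ).mul_pow, M.σ_pow_eq, one_mul, M.negOne_pow] at h2
  exact negOne_ne_one h2

theorem code_zero : M.code 0 = 0 := by
  have h := M.code_two isLeech_zero
  rwa [smul_zero] at h

theorem mark_ne_zero : M.mark ≠ 0 := by
  intro h
  obtain ⟨t, ht, e⟩ := M.mark_congr
  obtain ⟨s, hs, e'⟩ := M.congr_of_code (M.fixV_rep M.mark) (FixV.zero M.π)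
    (by rw [M.code_rep, h, M.code_zero])
  rw [sub_zero] at e'
  have e2 : M.markVec - 0 = 2 • (t + s) := by rw [sub_zero, nsmul_add, ← e, ← e', sub_add_cancel]
  have h0 : sqNorm (0 : V) = 0 := by simp [sqNorm]
  rcases congr_two_cases M.isLeech_markVec isLeech_zero (ht.add hs) e2 M.sqNorm_markVec.le
    (by rw [h0]; norm_num) with a | a | a
  · have := M.sqNorm_markVec; rw [← a, h0] at this; omega
  · have := M.sqNorm_markVec
    rw [eq_comm, neg_eq_zero] at a
    rw [a, h0] at this; omega
  · omega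

theorem φ_eq_of_mk {k l : Subgroup.centralizer ({permAut M.π M.hπ} : Set Co0)}
    (h : (QuotientGroup.mk (k : Co0) : Spor.Co1) = QuotientGroup.mk (l : Co0)) : M.φ k = M.φ l := by
  rw [QuotientGroup.eq, mem_center_iff] at h
  rw [← inv_mul_eq_one, ← map_inv, ← map_mul, M.φ_ker]
  refine ⟨0, ?_⟩
  rw [pow_zero, mul_one]
  exact h

end Model

end Cfsg.Agent.H18.Monster.Prime
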