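import Cfsg.Agent.H18.Monster.HeldPerm
import Cfsg.Agent.H18.Monster.Prime.Model

/-!
A code permutation given by tables: the code permutations commuting with it, the invariant code
words, and integral coordinates on the fixed sublattice.
-/

set_option autoImplicit false

namespace Cfsg.Agent.H18.Monster.Prime

open Cfsg Cfsg.Agent.H14 Finset
open Cfsg.Agent.H18.Monster.Held (pt idx_pt pt_idx isWord word_of_test test_of_word)

/-- A permutation of the points with its orbit tables. -/
structure Orb where
  π : Equiv.Perm GolayPt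
  mem : π ∈ M24
  img : List ℕ
  n : ℕ
  lab : List ℕ
  pos : List ℕ
  rep : List ℕ
  idx_π : ∀ q, H15.idx (π q) = img.getD (H15.idx q) 0
  spec : ∀ q, q = (π ^ pos.getD (H15.idx q) 0) (pt (rep.getD (lab.getD (H15.idx q) 0) 0))
  lab_lt : ∀ q, lab.getD (H15.idx q) 0 < n
  lab_π : ∀ q, lab.getD (H15.idx (π q)) 0 = lab.getD (H15.idx q) 0
  lab_rep : ∀ k : Fin n, lab.getD (rep.getD k.val 0) 0 = k.val
  rep_lt : ∀ k : Fin n, rep.getD k.val 0 < 24

namespace Orb

variable (O : Orb)

/-- The representative of an orbit. -/
noncomputable def r (k : Fin O.n) : GolayPt := pt (O.rep.getD k.val 0)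

/-- The orbit of a point. -/
def orbitOf (q : GolayPt) : Fin O.n := ⟨_, O.lab_lt q⟩

theorem spec' (q : GolayPt) : q = (O.π ^ O.pos.getD (H15.idx q) 0) (O.r (O.orbitOf q)) := O.spec q

theorem orbitOf_r (k : Fin O.n) : O.orbitOf (O.r k) = k := by
  apply Fin.ext
  show O.lab.getD (H15.idx (pt _)) 0 = _
  rw [idx_pt (O.rep_lt k), O.lab_rep]

theorem orbitOf_pow (m : ℕ) (q : GolayPt) : O.orbitOf ((O.π ^ m) q) = O.orbitOf q := by
  induction m with
  | zero => rfl
  | succ m ih =>
    rw [pow_succ', Equiv.Perm.mul_apply, ← ih]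
    exact Fin.ext (O.lab_π _)

/-- The iterate on positions. -/
def iter : ℕ → ℕ → ℕ
  | 0, p => p
  | m + 1, p => O.img.getD (iter m p) 0

theorem idx_pow (m : ℕ) (q : GolayPt) : H15.idx ((O.π ^ m) q) = O.iter m (H15.idx q) := by
  induction m with
  | zero => rfl
  | succ m ih =>
    rw [pow_succ', Equiv.Perm.mul_apply, O.idx_π, ih]
    rfl

/-- The image of a position under a commuting permutation with given images of representatives. -/
def imgAt (R : List ℕ) (i : ℕ) : ℕ := O.iter (O.pos.getD i 0) (R.getD (O.lab.getD i 0) 0)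

theorem idx_comm {ρ : Equiv.Perm GolayPt} (hc : ρ * O.π = O.π * ρ) {R : List ℕ} {q : GolayPt}
    (h : R.getD (O.orbitOf q).val 0 = H15.idx (ρ (O.r (O.orbitOf q)))) :
    H15.idx (ρ q) = O.imgAt R (H15.idx q) := by
  conv_lhs => rw [O.spec' q]
  rw [← Equiv.Perm.mul_apply, ((show Commute ρ O.π from hc).pow_right _).eq,
    Equiv.Perm.mul_apply, O.idx_pow, ← h]
  rfl

/-- Commuting permutations agreeing on the representatives are equal. -/
theorem eq_of_comm {ρ τ : Equiv.Perm GolayPt} (hρ : ρ * O.π = O.π * ρ) (hτ : τ * O.π = O.π * τ)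
    (h : ∀ k, ρ (O.r k) = τ (O.r k)) : ρ = τ := by
  refine Equiv.ext fun q => ?_
  rw [O.spec' q, ← Equiv.Perm.mul_apply, ← Equiv.Perm.mul_apply,
    ((show Commute ρ O.π from hρ).pow_right _).eq, ((show Commute τ O.π from hτ).pow_right _).eq,
    Equiv.Perm.mul_apply, Equiv.Perm.mul_apply, h]

/-- The number with the bits at the images of a list of positions. -/
def maskOf (f : ℕ → ℕ) : List ℕ → ℕ
  | [] => 0
  | i :: l => maskOf f l ||| 2 ^ f i

theorem testBit_maskOf (f : ℕ → ℕ) : ∀ (l : List ℕ) (j : ℕ),
    (maskOf f l).testBit j = true ↔ j ∈ l.map f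
  | [], j => by simp [maskOf]
  | i :: l, j => by
    simp only [maskOf, Nat.testBit_or, Bool.or_eq_true, testBit_maskOf f l j, Nat.testBit_two_pow,
      decide_eq_true_eq, List.map_cons, List.mem_cons]
    tauto

theorem maskOf_lt (f : ℕ → ℕ) : ∀ (l : List ℕ), (∀ i ∈ l, f i < 24) → maskOf f l < 2 ^ 24
  | [], _ => by norm_num [maskOf]
  | i :: l, h => by
    refine Nat.or_lt_two_pow (maskOf_lt f l fun j hj => h j (List.mem_cons_of_mem _ hj)) ?_
    exact Nat.pow_lt_pow_right (by norm_num) (h i (List.mem_cons_self ..))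

/-- The candidates for the next image: orbit of the same length, not used before. -/
def cands (fixedImg : ℕ → Bool) (R : List ℕ) : List ℕ :=
  (List.range 24).filter fun y => (fixedImg y == fixedImg (O.rep.getD R.length 0)) &&
    !(R.any fun x => O.lab.getD x 0 == O.lab.getD y 0)

/-- Test of a level: the sets supported by the orbits so far go to code words. -/
noncomputable def levelTest (R : List ℕ) (sets : List (List ℕ)) : Bool :=
  sets.all fun s => isWord (maskOf (O.imgAt R) s)

/-- The search over the images of the representatives. -/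
noncomputable def search (fixedImg : ℕ → Bool) (targets : List (List ℕ)) : List (List (List ℕ)) → List ℕ → Bool
  | [], R => targets.contains R
  | sets :: rest, R => (O.cands fixedImg R).all fun y =>
      !(O.levelTest (R ++ [y]) sets) || search fixedImg targets rest (R ++ [y])

/-- Test that the sets of a level are words supported by the orbits up to it. -/
noncomputable def setsTest (k : ℕ) (sets : List (List ℕ)) : Bool :=
  sets.all fun s => isWord (maskOf id s) && s.all fun i => decide (i < 24) && decide (O.lab.getD i 0 ≤ k)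

/-- The image list of a permutation up to a level. -/
noncomputable def imgList (ρ : Equiv.Perm GolayPt) (k : ℕ) : List ℕ :=
  (List.range k).map fun i => H15.idx (ρ (pt (O.rep.getD i 0)))

theorem search_spec (targets : List (List ℕ)) {ρ : Equiv.Perm GolayPt} (hρ : ρ ∈ M24)
    (hc : ρ * O.π = O.π * ρ) : ∀ (levels : List (List (List ℕ))) (k : ℕ), k + levels.length = O.n →
      (∀ j < levels.length, O.setsTest (k + j) (levels.getD j []) = true) →
      O.search (fun i => O.img.getD i 0 == i) targets levels (O.imgList ρ k) = true →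
      O.imgList ρ O.n ∈ targets
  | [], k, hk, _, h => by
    rw [search] at h
    rw [show O.n = k by simpa using hk.symm]
    exact List.contains_iff_mem.1 (by simpa using h)
  | sets :: rest, k, hk, hs, h => by
    rw [search, List.all_eq_true] at h
    have hkn : k < O.n := by simp at hk; omega
    set y := H15.idx (ρ (pt (O.rep.getD k 0))) with hy
    have hcand : y ∈ O.cands (fun i => O.img.getD i 0 == i) (O.imgList ρ k) := by
      refine List.mem_filter.2 ⟨List.mem_range.2 (H15.idx_lt _), ?_⟩
      rw [Bool.and_eq_true]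
      refine ⟨?_, ?_⟩
      · rw [show (O.imgList ρ k).length = k by simp [imgList]]
        have hfix : ∀ q, (O.img.getD (H15.idx q) 0 == H15.idx q) = decide (O.π q = q) := by
          intro q
          rw [← O.idx_π, Bool.eq_iff_iff, beq_iff_eq, decide_eq_true_eq]
          exact H15.idx_injective.eq_iff
        have hkr : O.rep.getD k 0 = H15.idx (pt (O.rep.getD k 0)) := (idx_pt (O.rep_lt ⟨k, hkn⟩)).symm
        rw [beq_iff_eq, hy]
        conv_rhs => rw [hkr]
        simp only []
        rw [hfix, hfix, decide_eq_decide]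
        have e := congrArg (fun f : Equiv.Perm GolayPt => f (pt (O.rep.getD k 0))) hc
        simp only [Equiv.Perm.mul_apply] at e
        rw [← e, ρ.apply_eq_iff_eq]
      · rw [Bool.not_eq_true', List.any_eq_false]
        intro x hx
        obtain ⟨i, hi, rfl⟩ := List.mem_map.1 hx
        rw [List.mem_range] at hi
        rw [beq_iff_eq]
        intro e
        set q₁ := ρ (O.r ⟨i, hi.trans hkn⟩) with hq₁
        set q₂ := ρ (O.r ⟨k, hkn⟩) with hq₂
        have e' : O.orbitOf q₁ = O.orbitOf q₂ := Fin.ext e
        have hci : ρ⁻¹ * O.π = O.π * ρ⁻¹ := by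
          rw [inv_mul_eq_iff_eq_mul, ← mul_assoc, hc, mul_inv_cancel_right]
        have hinv : ∀ q, O.orbitOf (ρ⁻¹ q) = O.orbitOf (ρ⁻¹ (O.r (O.orbitOf q))) := fun q => by
          conv_lhs => rw [O.spec' q, ← Equiv.Perm.mul_apply,
            ((show Commute ρ⁻¹ O.π from hci).pow_right _).eq, Equiv.Perm.mul_apply]
          rw [O.orbitOf_pow]
        have h1 := hinv q₁
        have h2 := hinv q₂
        rw [e', ← h2, hq₁, hq₂, show ρ⁻¹ (ρ _) = _ from ρ.symm_apply_apply _, show ρ⁻¹ (ρ _) = _ from ρ.symm_apply_apply _, O.orbitOf_r,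
          O.orbitOf_r] at h1
        exact absurd (congrArg Fin.val h1) (show i ≠ k by omega)
    have hlist : O.imgList ρ k ++ [y] = O.imgList ρ (k + 1) := by
      simp [imgList, List.range_succ, hy]
    have h' := h y hcand
    rw [hlist] at h'
    have htest : O.levelTest (O.imgList ρ (k + 1)) sets = true := by
      have hs0 := hs 0 (by simp)
      rw [Nat.add_zero, List.getD_cons_zero, setsTest, List.all_eq_true] at hs0
      refine List.all_eq_true.2 fun s hs' => ?_
      obtain ⟨hw, hsupp⟩ := Bool.and_eq_true_iff.1 (hs0 s hs')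
      rw [List.all_eq_true] at hsupp
      have himg : ∀ i ∈ s, H15.idx (ρ (pt i)) = O.imgAt (O.imgList ρ (k + 1)) i := by
        intro i hi
        obtain ⟨h24, hle⟩ := Bool.and_eq_true_iff.1 (hsupp i hi)
        rw [decide_eq_true_eq] at h24 hle
        have := O.idx_comm hc (R := O.imgList ρ (k + 1)) (q := pt i) ?_
        · rwa [idx_pt h24] at this
        · have hlab : (O.orbitOf (pt i)).val = O.lab.getD i 0 := by
            show O.lab.getD (H15.idx (pt i)) 0 = _
            rw [idx_pt h24]
          rw [hlab, imgList, H15.getD_map_of_lt (e := 0) _ (by rw [List.length_range]; omega),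
            List.getD_eq_getElem (List.range (k + 1)) _ (by rw [List.length_range]; omega), List.getElem_range, ← hlab]
          rfl
      refine test_of_word (maskOf_lt _ _ fun i hi => by rw [← himg i hi]; exact H15.idx_lt _) ?_
      have e : H9.natWord (maskOf (O.imgAt (O.imgList ρ (k + 1))) s) =
          fun q => H9.natWord (maskOf id s) (ρ⁻¹ q) := by
        funext q
        show (if (maskOf _ s).testBit (H15.idx q) = true then (1 : ZMod 2) else 0) =
          if (maskOf id s).testBit (H15.idx (ρ⁻¹ q)) = true then (1 : ZMod 2) else 0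
        have hiff : (maskOf (O.imgAt (O.imgList ρ (k + 1))) s).testBit (H15.idx q) = true ↔
            (maskOf id s).testBit (H15.idx (ρ⁻¹ q)) = true := by
          rw [testBit_maskOf, testBit_maskOf, List.map_id, List.mem_map]
          constructor
          · rintro ⟨i, hi, e⟩
            obtain ⟨h24, -⟩ := Bool.and_eq_true_iff.1 (hsupp i hi)
            rw [decide_eq_true_eq] at h24
            rw [← himg i hi] at e
            rw [← H15.idx_injective e, show ρ⁻¹ (ρ _) = _ from ρ.symm_apply_apply _, idx_pt h24]
            exact hi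
          · intro hi
            exact ⟨_, hi, by rw [← himg _ hi, pt_idx]; exact congrArg _ (ρ.apply_symm_apply q)⟩
        exact if_congr hiff rfl rfl
      rw [e]
      exact ((mem_M24_iff ρ).1 hρ _).1 (word_of_test hw)
    rw [htest] at h'
    simp only [Bool.not_true, Bool.false_or] at h'
    refine search_spec targets hρ hc rest (k + 1) (by simp at hk; omega) (fun j hj => ?_) h'
    have := hs (j + 1) (by simp; omega)
    rw [show k + 1 + j = k + (j + 1) by omega]
    simpa using this

theorem getD_imgList (ρ : Equiv.Perm GolayPt) (k : Fin O.n) :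
    (O.imgList ρ O.n).getD k.val 0 = H15.idx (ρ (O.r k)) := by
  rw [imgList, H15.getD_map_of_lt (e := 0) _ (by simp),
    List.getD_eq_getElem (List.range O.n) _ (by simp), List.getElem_range]
  rfl

/-- An invariant word is constant on the orbits. -/
theorem invariant_eq {c : GolayPt → ZMod 2} (h : ∀ q, c (O.π q) = c q) (q : GolayPt) :
    c q = c (O.r (O.orbitOf q)) := by
  have hm : ∀ (m : ℕ) q, c ((O.π ^ m) q) = c q := by
    intro m
    induction m with
    | zero => intro q; rfl
    | succ m ih => intro q; rw [pow_succ, Equiv.Perm.mul_apply, ih, h]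
  conv_lhs => rw [O.spec' q, hm]

/-- The indicator of an orbit. -/
def indV (k : Fin O.n) : V := fun q => if O.orbitOf q = k then 1 else 0

theorem eq_orbit_sum {w : V} (hw : permFun O.π w = w) : w = ∑ k, w (O.r k) • O.indV k := by
  have hinv : ∀ (m : ℕ) q, w ((O.π ^ m) q) = w q := by
    intro m
    induction m with
    | zero => intro q; rfl
    | succ m ih =>
      intro q
      rw [pow_succ, Equiv.Perm.mul_apply, ih]
      conv_lhs => rw [← hw]
      exact congrArg w (Equiv.symm_apply_apply O.π q)
  funext q
  rw [Finset.sum_apply, Finset.sum_eq_single (O.orbitOf q)]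
  · simp only [Pi.smul_apply, indV, if_true, smul_eq_mul, mul_one]
    conv_lhs => rw [O.spec' q, hinv]
  · intro j _ hj
    simp only [Pi.smul_apply, indV, smul_eq_mul]
    rw [if_neg (Ne.symm hj), mul_zero]
  · simp

/-- A fixed lattice vector is an integral combination of vectors with dual lattice vectors. -/
theorem exists_decomp (f y : Fin O.n → V) (U : Fin O.n → Fin O.n → ℤ) (den : ℤ) (hden : den ≠ 0)
    (hy : ∀ i, IsLeech (y i)) (hf : ∀ j, FixV O.π (f j))
    (hdual : ∀ i j, dotInt (y i) (f j) = if i = j then 8 else 0)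
    (hU : ∀ k l, ∑ i, U k i * dotInt (y i) (O.indV l) = if k = l then den else 0)
    {v : V} (hv : FixV O.π v) : ∃ c : Fin O.n → ℤ, v = ∑ j, c j • f j := by
  have hd : ∀ i, ∃ c, dotInt (y i) v = 8 * c := fun i => (hy i).eight_dvd_dotInt hv.1
  choose c hc using hd
  refine ⟨c, ?_⟩
  have hlin : ∀ (i : Fin O.n) (a : Fin O.n → ℤ) (g : Fin O.n → V),
      dotInt (y i) (∑ j, a j • g j) = ∑ j, a j * dotInt (y i) (g j) := by
    intro i a g
    simp only [dotInt, Finset.sum_apply, Pi.smul_apply, smul_eq_mul, mul_sum]
    rw [sum_comm]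
    exact sum_congr rfl fun j _ => sum_congr rfl fun p _ => by ring
  obtain ⟨u, hu⟩ : ∃ u, u = ∑ j, c j • f j := ⟨_, rfl⟩
  rw [← hu]
  have hfix : permFun O.π u = u := by
    funext q
    simp only [hu, permFun, Finset.sum_apply, Pi.smul_apply]
    exact sum_congr rfl fun j _ => congrArg _ (congrFun (hf j).2 q)
  have hw : permFun O.π (v - u) = v - u := by
    rw [show permFun O.π (v - u) = permFun O.π v - permFun O.π u from rfl, hv.2, hfix]
  have hzero : ∀ i, dotInt (y i) (v - u) = 0 := by
    intro i
    rw [dotInt_sub_right, hc, hu, hlin, Fintype.sum_eq_single i fun j hj => by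
      rw [hdual, if_neg (Ne.symm hj), mul_zero], hdual, if_pos rfl]
    ring
  have ha : ∀ k, (v - u) (O.r k) = 0 := by
    intro k
    have h0 : ∑ l, (v - u) (O.r l) * ∑ i, U k i * dotInt (y i) (O.indV l) = 0 := by
      simp only [mul_sum]
      rw [sum_comm]
      refine sum_eq_zero fun i _ => ?_
      have e := hzero i
      rw [eq_orbit_sum O hw, hlin] at e
      calc ∑ l, (v - u) (O.r l) * (U k i * dotInt (y i) (O.indV l))
          = U k i * ∑ l, (v - u) (O.r l) * dotInt (y i) (O.indV l) := by
            rw [mul_sum]; exact sum_congr rfl fun l _ => by ring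
        _ = 0 := by rw [e, mul_zero]
    simp only [hU, mul_ite, mul_zero, sum_ite_eq, mem_univ, if_true] at h0
    exact (mul_eq_zero.1 h0).resolve_right hden
  rw [← sub_eq_zero, eq_orbit_sum O hw]
  exact sum_eq_zero fun k _ => by rw [ha k, zero_smul]

end Orb

end Cfsg.Agent.H18.Monster.Prime
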