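import Cfsg.Agent.H18.Monster.HeldLattice
import Cfsg.Agent.H18.Monster.Prime.Orbits

/-!
From tables to the lattice side: the centralizer of a code permutation in the automorphism group of
the Leech lattice, acting on a family of subspaces of the fixed sublattice modulo two.
-/

set_option autoImplicit false

namespace Cfsg.Agent.H18.Monster.Prime

open Cfsg Cfsg.Agent.H14 Finset
open Cfsg.Agent.H18.Monster.Held (pt pf idx_pt pt_idx isWord word_of_test test_of_word dot_toVec
  actL act_matAut preserves mem_M24_of_preserves)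

/-- A number as a code of the given length. -/
def bitsN (n m : ℕ) : Fin n → ZMod 2 := fun i => if m.testBit i.val then 1 else 0

/-- A code as a number. -/
def numN {n : ℕ} (c : Fin n → ZMod 2) : ℕ := Nat.ofBits fun i => decide (c i = 1)

theorem bitsN_numN {n : ℕ} (c : Fin n → ZMod 2) : bitsN n (numN c) = c := by
  funext i
  rw [bitsN, numN, Nat.testBit_ofBits_lt _ _ i.2]
  exact (by decide : ∀ z : ZMod 2, (if decide (z = 1) = true then 1 else 0) = z) _

theorem numN_lt {n : ℕ} (c : Fin n → ZMod 2) : numN c < 2 ^ n := Nat.ofBits_lt_two_pow _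

theorem bitsN_zero (n : ℕ) : bitsN n 0 = 0 := by
  funext i; simp [bitsN]

/-- Test that a list is a lattice vector fixed by a table. -/
noncomputable def fixTest (img : List ℕ) (l : List ℤ) : Bool :=
  H15.leechOk l && (l.length == 24 && H15.allBelow (fun i => l.getD (img.getD i 0) 0 == l.getD i 0) 24)

/-- Coordinates modulo two of a list. -/
noncomputable def codeList (n : ℕ) (yL : List (List ℤ)) (l : List ℤ) : Fin n → ZMod 2 := fun i =>
  ((H15.listDot (yL.getD i.val []) l / 8 : ℤ) : ZMod 2)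

/-- Test that two tables are inverse, preserve the code and commute with a third. -/
noncomputable def tauTest (img L I : List ℕ) : Bool :=
  preserves I && H15.allBelow (fun i => decide (L.getD i 0 < 24) && decide (I.getD i 0 < 24) &&
    (I.getD (L.getD i 0) 0 == i) && (L.getD (I.getD i 0) 0 == i) &&
    (L.getD (img.getD i 0) 0 == img.getD (L.getD i 0) 0)) 24

/-- Test that a matrix commutes with a table. -/
noncomputable def commTest (img : List ℕ) (M : H15.Mat) : Bool :=
  H15.allBelow (fun i => H15.allBelow (fun j =>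
    (M.cols.getD (img.getD j 0) []).getD (img.getD i 0) 0 == (M.cols.getD j []).getD i 0) 24) 24

/-- Test that a word is constant on the orbits. -/
noncomputable def wordTest (img : List ℕ) (w : ℕ) : Bool :=
  isWord w && H15.allBelow (fun i => w.testBit (img.getD i 0) == w.testBit i) 24

/-- The image of a list under a monomial element given by tables. -/
def monoList (w : ℕ) (I : List ℕ) (l : List ℤ) : List ℤ :=
  (List.range 24).map fun i => if w.testBit i then -l.getD (I.getD i 0) 0 else l.getD (I.getD i 0) 0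

/-- The image of a code under a linear map given by the images of the unit codes. -/
def linC (n : ℕ) (m : List ℕ) (c : Fin n → ZMod 2) : Fin n → ZMod 2 :=
  fun i => ∑ j, c j * bitsN n (m.getD j.val 0) i

/-- The combination of a list of codes. -/
def combC (n d : ℕ) (b : List ℕ) (s : Fin d → ZMod 2) : Fin n → ZMod 2 :=
  fun i => ∑ j, s j * bitsN n (b.getD j.val 0) i

theorem allBelow_intro {f : ℕ → Bool} {M : ℕ} (h : ∀ i < M, f i = true) :
    H15.allBelow f M = true := by
  induction M with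
  | zero => rfl
  | succ M ih =>
    rw [H15.allBelow, Bool.and_eq_true]
    exact ⟨h M (by omega), ih fun i hi => h i (by omega)⟩

/-- The tables. -/
structure Frame where
  O : Orb
  p : ℕ
  prime : p.Prime
  odd : p ≠ 2
  pow_eq : O.π ^ p = 1
  fL : List (List ℤ)
  yL : List (List ℤ)
  U : List (List ℤ)
  den : ℤ
  den_ne : den ≠ 0
  fy_ok : ∀ i : Fin O.n, fixTest O.img (fL.getD i.val []) = true ∧
    (H15.leechOk (yL.getD i.val []) = true ∧ (yL.getD i.val []).length = 24) ∧
    ∀ j : Fin O.n, H15.listDot (yL.getD i.val []) (fL.getD j.val []) = if i = j then 8 else 0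
  U_ok : ∀ k l : Fin O.n, ∑ i : Fin O.n, (U.getD k.val []).getD i.val 0 *
    ((List.range 24).map fun q => if O.lab.getD q 0 = l.val then
      (yL.getD i.val []).getD q 0 else 0).sum = if k = l then den else 0
  repL : List (List ℤ)
  S : List ℕ
  rep_ok : ∀ m : Fin (2 ^ O.n), fixTest O.img (repL.getD m.val []) = true ∧
    codeList O.n yL (repL.getD m.val []) = bitsN O.n m.val ∧
    (m.val ∈ S ∨ H15.listDot (repL.getD m.val []) (repL.getD m.val []) ≤ 48)
  pair_ok : ∀ m : Fin (2 ^ O.n), m.val ≠ 0 → ∃ d : Fin (2 ^ O.n),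
    ¬ (16 : ℤ) ∣ H15.listDot (repL.getD m.val []) (repL.getD d.val [])
  mat : H15.Mat
  mat_ok : mat.ok = true
  mat_comm : commTest O.img mat = true
  NT : ℕ
  tauL : List (List ℕ)
  tauI : List (List ℕ)
  tau_ok : ∀ t : Fin NT, tauTest O.img (tauL.getD t.val []) (tauI.getD t.val []) = true
  tau_zero : 0 < NT ∧ tauI.getD 0 [] = List.range 24
  NW : ℕ
  fwL : List ℕ
  fw_ok : ∀ n : Fin NW, wordTest O.img (fwL.getD n.val 0) = true
  fw_ends : 0 < NW ∧ fwL.getD 0 0 = 0 ∧ fwL.getD (NW - 1) 0 = 2 ^ 24 - 1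
  inv_words : ∀ m : Fin (2 ^ O.n),
    isWord (Nat.ofBits fun q : Fin 24 => m.val.testBit (O.lab.getD q.val 0)) = true →
      ∃ n : Fin NW, fwL.getD n.val 0 = Nat.ofBits fun q : Fin 24 => m.val.testBit (O.lab.getD q.val 0)
  comm_ok : ∀ π : Equiv.Perm GolayPt, π ∈ M24 → π * O.π = O.π * π →
    ∃ t : Fin NT, ∃ m : Fin p, ∀ k : Fin O.n,
      H15.idx (π (O.r k)) = O.iter m.val ((tauL.getD t.val []).getD (O.rep.getD k.val 0) 0)
  tL : List ℤ
  eight_ok : H15.leechOk tL = true ∧ ∀ i : Fin 24,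
    (if i.val = 23 then (8 : ℤ) else 0) - (repL.getD (S.getD 0 0) []).getD i.val 0 =
      2 * tL.getD i.val 0
  S_lt : ∀ c ∈ S, c < 2 ^ O.n
  S_ne : 0 < S.length
  muG : List (List ℕ)
  mu_ok : ∀ g : Fin (1 + NT + NW), ∀ j : Fin O.n,
    codeList O.n yL
      (if g.val = 0 then actL mat (repL.getD (2 ^ j.val) []) else
        if g.val < 1 + NT then monoList 0 (tauI.getD (g.val - 1) []) (repL.getD (2 ^ j.val) [])
        else monoList (fwL.getD (g.val - 1 - NT) 0) (List.range 24) (repL.getD (2 ^ j.val) [])) =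
      bitsN O.n ((muG.getD g.val []).getD j.val 0)
  words : List (List ℕ)
  word_ok : ∀ c : Fin S.length, (∀ g ∈ words.getD c.val [], g < 1 + NT + NW) ∧
    (words.getD c.val []).foldr (fun g x => linC O.n (muG.getD g []) x) (bitsN O.n (S.getD 0 0)) =
      bitsN O.n (S.getD c.val 0)
  word_zero : words.getD 0 [] = []
  N : ℕ
  D : ℕ
  bas : List (List ℕ)
  bas_inj : ∀ i j : Fin N, (∀ l : Fin D, ∃ s : Fin D → ZMod 2,
    combC O.n D (bas.getD j.val []) s = bitsN O.n ((bas.getD i.val []).getD l.val 0)) → i = j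
  permG : List (List ℕ)
  perm_ok : ∀ g : Fin (1 + NT + NW), ∀ i : Fin N, (permG.getD g.val []).getD i.val 0 < N ∧
    ∀ l : Fin D, ∃ s : Fin D → ZMod 2,
      combC O.n D (bas.getD ((permG.getD g.val []).getD i.val 0) []) s =
        linC O.n (muG.getD g.val []) (bitsN O.n ((bas.getD i.val []).getD l.val 0))
  permC : List (List ℕ)
  permC_ok : ∀ c : Fin S.length, ∀ i : Fin N, (permC.getD c.val []).getD i.val 0 =
    (words.getD c.val []).foldr (fun g x => (permG.getD g []).getD x 0) i.val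
  ker_ok : ∀ c : Fin S.length, ∀ n : Fin NW, ∀ t : Fin NT, (∀ i : Fin N, (permC.getD c.val []).getD
      ((permG.getD (1 + NT + n.val) []).getD ((permG.getD (1 + t.val) []).getD i.val 0) 0) 0 = i.val) →
    (c.val = 0 ∧ t.val = 0) ∧ (n.val = 0 ∨ n.val = NW - 1)

namespace Frame

variable (F : Frame)

/-- The code of a fixed vector. -/
noncomputable def code (v : V) : Fin F.O.n → ZMod 2 :=
  codeOf (fun i => H15.toVec (F.yL.getD i.val [])) v

theorem yL_leech (i : Fin F.O.n) : IsLeech (H15.toVec (F.yL.getD i.val [])) :=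
  H15.leechOk_spec (F.fy_ok i).2.1.1

theorem code_toVec {l : List ℤ} (hl : l.length = 24) :
    F.code (H15.toVec l) = codeList F.O.n F.yL l := by
  funext i
  rw [code, codeOf, codeList, dot_toVec (F.fy_ok i).2.1.2 hl]

theorem code_add {x y : V} (hx : IsLeech x) (hy : IsLeech y) :
    F.code (x + y) = F.code x + F.code y := codeOf_add F.yL_leech hx hy

theorem fixTest_spec {l : List ℤ} (h : fixTest F.O.img l = true) :
    FixV F.O.π (H15.toVec l) ∧ l.length = 24 := by
  rw [fixTest, Bool.and_eq_true, Bool.and_eq_true, beq_iff_eq] at h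
  refine ⟨⟨H15.leechOk_spec h.1, funext fun q => ?_⟩, h.2.1⟩
  obtain ⟨r, rfl⟩ := F.O.π.surjective q
  show l.getD (H15.idx (F.O.π.symm (F.O.π r))) 0 = l.getD (H15.idx (F.O.π r)) 0
  rw [Equiv.symm_apply_apply, F.O.idx_π]
  exact (beq_iff_eq.1 (H15.allBelow_eq_true h.2.2 _ (H15.idx_lt r))).symm

/-- The basis. -/
noncomputable def f (j : Fin F.O.n) : V := H15.toVec (F.fL.getD j.val [])

theorem fixV_f (j : Fin F.O.n) : FixV F.O.π (F.f j) := (F.fixTest_spec (F.fy_ok j).1).1

theorem dual (i j : Fin F.O.n) :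
    dotInt (H15.toVec (F.yL.getD i.val [])) (F.f j) = if i = j then 8 else 0 := by
  rw [f, dot_toVec (F.fy_ok i).2.1.2 (F.fixTest_spec (F.fy_ok j).1).2]
  exact (F.fy_ok i).2.2 j

theorem exists_decomp {v : V} (hv : FixV F.O.π v) :
    ∃ c : Fin F.O.n → ℤ, v = ∑ j, c j • F.f j := by
  refine F.O.exists_decomp F.f (fun i => H15.toVec (F.yL.getD i.val []))
    (fun k i => (F.U.getD k.val []).getD i.val 0) F.den F.den_ne F.yL_leech F.fixV_f F.dual ?_ hv
  intro k l
  rw [← F.U_ok k l]
  refine sum_congr rfl fun i _ => ?_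
  congr 1
  have hl := (F.fy_ok i).2.1.2
  have e : (F.O.indV l) =
      H15.toVec ((List.range 24).map fun q => if F.O.lab.getD q 0 = l.val then (1 : ℤ) else 0) := by
    funext q
    rw [H15.toVec, H15.getD_map_of_lt (e := 0) _ (by simpa using H15.idx_lt q),
      List.getD_eq_getElem (List.range 24) _ (by simpa using H15.idx_lt q), List.getElem_range,
      Orb.indV]
    exact if_congr Fin.ext_iff rfl rfl
  rw [e, dot_toVec hl (by simp), H15.listDot_eq (by simpa using hl), hl]
  rw [← List.sum_toFinset _ List.nodup_range, List.toFinset_range]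
  refine sum_congr rfl fun q hq => ?_
  rw [Finset.mem_range] at hq
  rw [H15.getD_map_of_lt (e := 0) _ (by simpa using hq),
    List.getD_eq_getElem (List.range 24) _ (by simpa using hq), List.getElem_range]
  split <;> simp

theorem code_zero : F.code 0 = 0 := by
  funext i; simp [code, codeOf, dotInt]

theorem ker {v : V} (hv : FixV F.O.π v) (h : F.code v = 0) : ∃ t, IsLeech t ∧ v = 2 • t := by
  obtain ⟨c, rfl⟩ := F.exists_decomp hv
  have hc : ∀ i, ∃ d, c i = 2 * d := by
    intro i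
    have h1 := congrFun h i
    have e : dotInt (H15.toVec (F.yL.getD i.val [])) (∑ j, c j • F.f j) = 8 * c i := by
      have : dotInt (H15.toVec (F.yL.getD i.val [])) (∑ j, c j • F.f j) =
          ∑ j, c j * dotInt (H15.toVec (F.yL.getD i.val [])) (F.f j) := by
        simp only [dotInt, Finset.sum_apply, Pi.smul_apply, smul_eq_mul, mul_sum]
        rw [sum_comm]
        exact sum_congr rfl fun j _ => sum_congr rfl fun q _ => by ring
      rw [this, Fintype.sum_eq_single i fun j hj => by rw [F.dual, if_neg (Ne.symm hj), mul_zero],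
        F.dual, if_pos rfl]
      ring
    simp only [code, codeOf, e, Int.mul_ediv_cancel_left _ (by norm_num : (8 : ℤ) ≠ 0),
      Pi.zero_apply] at h1
    exact (ZMod.intCast_zmod_eq_zero_iff_dvd (c i) 2).1 h1
  choose d hd using hc
  refine ⟨∑ j, d j • F.f j, AddSubgroup.sum_mem leechAdd fun j _ =>
    AddSubgroup.zsmul_mem leechAdd (F.fixV_f j).1 _, ?_⟩
  rw [Finset.smul_sum]
  exact sum_congr rfl fun j _ => by rw [hd j, mul_smul, two_nsmul, two_smul]

/-- The representative of a code. -/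
noncomputable def rep (c : Fin F.O.n → ZMod 2) : V := H15.toVec (F.repL.getD (numN c) [])

theorem rep_spec (c : Fin F.O.n → ZMod 2) : fixTest F.O.img (F.repL.getD (numN c) []) = true ∧
    codeList F.O.n F.yL (F.repL.getD (numN c) []) = c ∧
    (numN c ∈ F.S ∨ H15.listDot (F.repL.getD (numN c) []) (F.repL.getD (numN c) []) ≤ 48) := by
  have h := F.rep_ok ⟨numN c, numN_lt c⟩
  simpa only [bitsN_numN] using h

theorem fixV_rep (c : Fin F.O.n → ZMod 2) : FixV F.O.π (F.rep c) :=
  (F.fixTest_spec (F.rep_spec c).1).1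

theorem rep_len (c : Fin F.O.n → ZMod 2) : (F.repL.getD (numN c) []).length = 24 :=
  (F.fixTest_spec (F.rep_spec c).1).2

theorem code_rep (c : Fin F.O.n → ZMod 2) : F.code (F.rep c) = c := by
  rw [rep, F.code_toVec (F.rep_len c)]; exact (F.rep_spec c).2.1

theorem pairing (c : Fin F.O.n → ZMod 2) (hc : c ≠ 0) :
    ∃ d, ¬ (16 : ℤ) ∣ dotInt (F.rep c) (F.rep d) := by
  obtain ⟨d, hd⟩ := F.pair_ok ⟨numN c, numN_lt c⟩ fun e => hc (by
    rw [← bitsN_numN c]; simp only at e; rw [e, bitsN_zero])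
  refine ⟨bitsN F.O.n d.val, ?_⟩
  have e : numN (bitsN F.O.n d.val) = d.val := by
    refine Nat.eq_of_testBit_eq fun i => ?_
    by_cases hi : i < F.O.n
    · rw [numN, Nat.testBit_ofBits_lt _ _ hi, bitsN]
      cases d.val.testBit i <;> simp
    · rw [numN, Nat.testBit_ofBits_ge _ _ (by omega), Nat.testBit_lt_two_pow
        (lt_of_lt_of_le d.2 (Nat.pow_le_pow_right (by norm_num) (by omega)))]
  rw [rep, rep, dot_toVec (F.rep_len c) (F.rep_len _), e]
  exact hd

theorem congr_of_code {v w : V} (hv : FixV F.O.π v) (hw : FixV F.O.π w)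
    (h : F.code v = F.code w) : ∃ t, IsLeech t ∧ v - w = 2 • t := by
  refine F.ker (hv.sub hw) ?_
  have h1 := F.code_add (hv.sub hw).1 hw.1
  rw [sub_add_cancel, h] at h1
  exact right_eq_add.1 h1

theorem code_two {t : V} (ht : IsLeech t) : F.code (2 • t) = 0 := by
  rw [two_nsmul, F.code_add ht ht]
  funext i
  exact CharTwo.add_self_eq_zero _

theorem code_congr {x y t : V} (hy : IsLeech y) (ht : IsLeech t) (e : x - y = 2 • t) :
    F.code x = F.code y := by
  rw [← sub_add_cancel x y, e, F.code_add (by rw [two_nsmul]; exact ht.add ht) hy, F.code_two ht,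
    zero_add]

/-! ### The action on codes -/

/-- The permutation as an automorphism of the lattice. -/
noncomputable def σ : Co0 := permAut F.O.π F.O.mem

/-- The centralizer. -/
noncomputable def K : Subgroup Co0 := Subgroup.centralizer ({F.σ} : Set Co0)

theorem mem_K {k : Co0} : k ∈ F.K ↔ k * F.σ = F.σ * k := Subgroup.mem_centralizer_singleton_iff

theorem act_σ {x : V} (hx : IsLeech x) : act F.σ x = permFun F.O.π x := act_permAut F.O.mem hx

theorem fixV_act {k : Co0} (hk : k ∈ F.K) {v : V} (hv : FixV F.O.π v) :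
    FixV F.O.π (act k v) := by
  refine ⟨isLeech_act k hv.1, ?_⟩
  rw [← F.act_σ (isLeech_act k hv.1), ← mul_act, ← F.mem_K.1 hk, mul_act, F.act_σ hv.1, hv.2]

theorem code_act_congr (k : Co0) {v w : V} (hv : FixV F.O.π v) (hw : FixV F.O.π w)
    (h : F.code v = F.code w) : F.code (act k v) = F.code (act k w) := by
  obtain ⟨t, ht, e⟩ := F.congr_of_code hv hw h
  exact F.code_congr (isLeech_act k hw.1) (isLeech_act k ht)
    (by rw [← act_sub k hv.1 hw.1, e, act_two_smul k ht])

/-- The map on codes. -/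
noncomputable def mu (k : Co0) : (Fin F.O.n → ZMod 2) →+ (Fin F.O.n → ZMod 2) :=
  AddMonoidHom.mk' (fun c => F.code (act k (F.rep c))) fun a b => by
    rw [← F.code_add (isLeech_act k (F.fixV_rep a).1) (isLeech_act k (F.fixV_rep b).1),
      ← act_add k (F.fixV_rep a).1 (F.fixV_rep b).1]
    exact F.code_act_congr k (F.fixV_rep _) ((F.fixV_rep a).add (F.fixV_rep b))
      (by rw [F.code_add (F.fixV_rep a).1 (F.fixV_rep b).1, F.code_rep, F.code_rep, F.code_rep])

theorem mu_apply (k : Co0) (c : Fin F.O.n → ZMod 2) : F.mu k c = F.code (act k (F.rep c)) := rfl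

theorem mu_code (k : Co0) {v : V} (hv : FixV F.O.π v) :
    F.code (act k v) = F.mu k (F.code v) :=
  F.code_act_congr k hv (F.fixV_rep _) (F.code_rep _).symm

theorem mu_mul {k l : Co0} (hl : l ∈ F.K) (c : Fin F.O.n → ZMod 2) :
    F.mu (k * l) c = F.mu k (F.mu l c) := by
  rw [mu_apply, mul_act, F.mu_code k (F.fixV_act hl (F.fixV_rep c))]
  rfl

theorem mu_one (c : Fin F.O.n → ZMod 2) : F.mu 1 c = c := by
  rw [mu_apply, one_act, F.code_rep]

theorem mu_zmod (k : Co0) (z : ZMod 2) (c : Fin F.O.n → ZMod 2) :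
    F.mu k (z • c) = z • F.mu k c := by
  rcases (by decide : ∀ z : ZMod 2, z = 0 ∨ z = 1) z with rfl | rfl
  · rw [zero_smul, zero_smul, map_zero]
  · rw [one_smul, one_smul]

theorem mu_eq_lin {k : Co0} (m : List ℕ)
    (h : ∀ j : Fin F.O.n, F.mu k (bitsN F.O.n (2 ^ j.val)) = bitsN F.O.n (m.getD j.val 0))
    (c : Fin F.O.n → ZMod 2) : F.mu k c = linC F.O.n m c := by
  have e : c = ∑ j, c j • bitsN F.O.n (2 ^ j.val) := by
    funext i
    rw [Finset.sum_apply, Fintype.sum_eq_single i]
    · simp [bitsN]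
    · intro j hj
      simp [bitsN, Nat.testBit_two_pow, Fin.val_ne_of_ne hj]
  conv_lhs => rw [e]
  rw [map_sum]
  funext i
  rw [Finset.sum_apply, linC]
  refine sum_congr rfl fun j _ => ?_
  rw [F.mu_zmod, h, Pi.smul_apply, smul_eq_mul]

theorem mu_σ (c : Fin F.O.n → ZMod 2) : F.mu F.σ c = c := by
  rw [mu_apply, F.act_σ (F.fixV_rep c).1, (F.fixV_rep c).2, F.code_rep]

theorem σ_mem : F.σ ∈ F.K := F.mem_K.2 rfl

theorem mu_negOne (c : Fin F.O.n → ZMod 2) : F.mu negOne c = c := by
  rw [mu_apply, act_negOne (F.fixV_rep c).1]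
  have h := F.code_congr (x := -F.rep c) (y := F.rep c) (t := -F.rep c) (F.fixV_rep c).1
    (F.fixV_rep c).1.neg (by rw [two_nsmul]; abel)
  rw [h, F.code_rep]

theorem negOne_mem : negOne ∈ F.K :=
  F.mem_K.2 (Subgroup.mem_center_iff.1 negOne_mem_center _).symm

/-! ### The generators -/

theorem tauTest_spec (t : Fin F.NT) : preserves (F.tauI.getD t.val []) = true ∧ ∀ i < 24,
    (F.tauL.getD t.val []).getD i 0 < 24 ∧ (F.tauI.getD t.val []).getD i 0 < 24 ∧
    (F.tauI.getD t.val []).getD ((F.tauL.getD t.val []).getD i 0) 0 = i ∧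
    (F.tauL.getD t.val []).getD ((F.tauI.getD t.val []).getD i 0) 0 = i ∧
    (F.tauL.getD t.val []).getD (F.O.img.getD i 0) 0 =
      F.O.img.getD ((F.tauL.getD t.val []).getD i 0) 0 := by
  have h := F.tau_ok t
  rw [tauTest, Bool.and_eq_true] at h
  refine ⟨h.1, fun i hi => ?_⟩
  have h2 := H15.allBelow_eq_true h.2 i hi
  simp only [Bool.and_eq_true, decide_eq_true_eq, beq_iff_eq] at h2
  exact ⟨h2.1.1.1.1, h2.1.1.1.2, h2.1.1.2, h2.1.2, h2.2⟩

/-- The code permutations. -/
noncomputable def tau (t : Fin F.NT) : Equiv.Perm GolayPt where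
  toFun := pf (F.tauL.getD t.val [])
  invFun := pf (F.tauI.getD t.val [])
  left_inv q := by
    obtain ⟨h1, -, h3, -, -⟩ := (F.tauTest_spec t).2 _ (H15.idx_lt q)
    show pt _ = q
    rw [show H15.idx (pf (F.tauL.getD t.val []) q) = _ from idx_pt h1, h3, pt_idx]
  right_inv q := by
    obtain ⟨-, h2, -, h4, -⟩ := (F.tauTest_spec t).2 _ (H15.idx_lt q)
    show pt _ = q
    rw [show H15.idx (pf (F.tauI.getD t.val []) q) = _ from idx_pt h2, h4, pt_idx]

theorem idx_tau (t : Fin F.NT) (q : GolayPt) :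
    H15.idx (F.tau t q) = (F.tauL.getD t.val []).getD (H15.idx q) 0 :=
  idx_pt ((F.tauTest_spec t).2 _ (H15.idx_lt q)).1

theorem idx_tau_symm (t : Fin F.NT) (q : GolayPt) :
    H15.idx ((F.tau t).symm q) = (F.tauI.getD t.val []).getD (H15.idx q) 0 :=
  idx_pt ((F.tauTest_spec t).2 _ (H15.idx_lt q)).2.1

theorem tau_mem (t : Fin F.NT) : F.tau t ∈ M24 :=
  mem_M24_of_preserves (F.idx_tau_symm t) (F.tauTest_spec t).1

theorem tau_comm (t : Fin F.NT) : F.tau t * F.O.π = F.O.π * F.tau t := by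
  refine Equiv.ext fun q => H15.idx_injective ?_
  rw [Equiv.Perm.mul_apply, Equiv.Perm.mul_apply, F.idx_tau, F.O.idx_π, F.O.idx_π, F.idx_tau]
  exact ((F.tauTest_spec t).2 _ (H15.idx_lt q)).2.2.2.2

/-- The fixed code words. -/
noncomputable def fw (n : Fin F.NW) : GolayPt → ZMod 2 := H9.natWord (F.fwL.getD n.val 0)

theorem fw_spec (n : Fin F.NW) : F.fw n ∈ golayCode ∧ ∀ q, F.fw n (F.O.π q) = F.fw n q := by
  have h := F.fw_ok n
  rw [wordTest, Bool.and_eq_true] at h
  refine ⟨word_of_test h.1, fun q => ?_⟩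
  have e : (F.fwL.getD n.val 0).testBit (H15.idx (F.O.π q)) =
      (F.fwL.getD n.val 0).testBit (H15.idx q) := by
    rw [F.O.idx_π]; exact beq_iff_eq.1 (H15.allBelow_eq_true h.2 _ (H15.idx_lt q))
  show (if (F.fwL.getD n.val 0).testBit (H15.idx (F.O.π q)) = true then (1 : ZMod 2) else 0) = _
  rw [e]
  rfl

theorem mono_mem {τ : Equiv.Perm GolayPt} (hτ : τ ∈ M24) {c : GolayPt → ZMod 2} (hc : c ∈ golayCode)
    (h1 : τ * F.O.π = F.O.π * τ) (h2 : ∀ q, c (F.O.π q) = c q) : monoAut τ hτ c hc ∈ F.K := by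
  rw [mem_K]
  refine act_eq_of_forall fun x hx => ?_
  rw [mul_act, mul_act, F.act_σ hx, act_monoAut _ _ (hx.permFun F.O.mem), act_monoAut _ _ hx,
    F.act_σ ((hx.permFun hτ).signFun hc)]
  funext q
  obtain ⟨r, rfl⟩ := F.O.π.surjective q
  have ht : F.O.π.symm (τ.symm (F.O.π r)) = τ.symm r := by
    rw [Equiv.symm_apply_eq]
    apply τ.injective
    rw [Equiv.apply_symm_apply, ← Equiv.Perm.mul_apply τ, h1, Equiv.Perm.mul_apply,
      Equiv.apply_symm_apply]
  simp only [signFun, permFun, h2 r, Equiv.symm_apply_apply, ht]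

theorem natWord_zero : H9.natWord 0 = 0 := by funext q; simp [H9.natWord]

theorem natWord_zero_mem : H9.natWord 0 ∈ golayCode := natWord_zero ▸ zero_mem _

/-- The monomial permutation elements. -/
noncomputable def genT (t : Fin F.NT) : Co0 :=
  monoAut (F.tau t) (F.tau_mem t) (H9.natWord 0) natWord_zero_mem

/-- The sign elements. -/
noncomputable def genW (n : Fin F.NW) : Co0 :=
  monoAut 1 (one_mem _) (F.fw n) (F.fw_spec n).1

theorem genT_mem (t : Fin F.NT) : F.genT t ∈ F.K :=
  F.mono_mem _ _ (F.tau_comm t) fun _ => by rw [natWord_zero]; rfl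

theorem genW_mem (n : Fin F.NW) : F.genW n ∈ F.K :=
  F.mono_mem _ _ (by rw [one_mul, mul_one]) (F.fw_spec n).2

/-- The matrix element. -/
noncomputable def genM : Co0 := H15.matAut F.mat F.mat_ok

theorem genM_mem : F.genM ∈ F.K := by
  rw [mem_K]
  refine act_eq_of_forall fun x hx => ?_
  have hm : ∀ y, IsLeech y → act F.genM y = H15.divMap F.mat.cols y := fun y hy => by
    rw [act_of_isLeech _ hy, genM, H15.matAut, mkCo0_apply]
  rw [mul_act, mul_act, F.act_σ hx, F.act_σ (isLeech_act _ hx), hm _ hx,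
    hm _ (hx.permFun F.O.mem)]
  funext q
  show (H15.colMat F.mat.cols).mulVec (permFun F.O.π x) q / 8 =
    (H15.colMat F.mat.cols).mulVec x (F.O.π.symm q) / 8
  congr 1
  simp only [Matrix.mulVec, dotProduct, permFun]
  refine (Equiv.sum_comp F.O.π _).symm.trans ?_
  refine sum_congr rfl fun u _ => ?_
  rw [Equiv.symm_apply_apply]
  congr 1
  obtain ⟨r, rfl⟩ := F.O.π.surjective q
  rw [Equiv.symm_apply_apply, Held.colMat_apply, Held.colMat_apply, F.O.idx_π, F.O.idx_π]
  exact beq_iff_eq.1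
    (H15.allBelow_eq_true (H15.allBelow_eq_true F.mat_comm _ (H15.idx_lt r)) _ (H15.idx_lt u))

/-- The generators by number. -/
noncomputable def gen (g : ℕ) : Co0 :=
  if g = 0 then F.genM else if h : g < 1 + F.NT then F.genT ⟨g - 1, by have := F.tau_zero.1; omega⟩
  else if h' : g - 1 - F.NT < F.NW then F.genW ⟨g - 1 - F.NT, h'⟩ else 1

theorem gen_mem (g : ℕ) : F.gen g ∈ F.K := by
  rw [gen]; split_ifs
  exacts [F.genM_mem, F.genT_mem _, F.genW_mem _, one_mem _]

theorem act_monoList {τ : Equiv.Perm GolayPt} (hτ : τ ∈ M24) {w : ℕ}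
    (hc : H9.natWord w ∈ golayCode) {I : List ℕ}
    (hI : ∀ q, H15.idx (τ.symm q) = I.getD (H15.idx q) 0) {l : List ℤ}
    (hL : IsLeech (H15.toVec l)) :
    act (monoAut τ hτ (H9.natWord w) hc) (H15.toVec l) = H15.toVec (monoList w I l) := by
  rw [act_monoAut _ _ hL]
  funext q
  rw [H15.toVec, monoList, H15.getD_map_of_lt (e := 0) _ (by simpa using H15.idx_lt q),
    List.getD_eq_getElem (List.range 24) _ (by simpa using H15.idx_lt q), List.getElem_range, ← hI q]
  simp only [signFun, permFun, H9.natWord]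
  show (if (if w.testBit (H15.idx q) = true then (1 : ZMod 2) else 0) = 0 then _ else _) = _
  cases w.testBit (H15.idx q) <;> simp [H15.toVec]

theorem range_idx (q : GolayPt) : (List.range 24).getD (H15.idx q) 0 = H15.idx q := by
  rw [List.getD_eq_getElem _ _ (by simpa using H15.idx_lt q), List.getElem_range]

theorem numN_unit {n : ℕ} (j : Fin n) : numN (bitsN n (2 ^ j.val)) = 2 ^ j.val := by
  refine Nat.eq_of_testBit_eq fun i => ?_
  by_cases hi : i < n
  · rw [numN, Nat.testBit_ofBits_lt _ _ hi, bitsN]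
    cases (2 ^ j.val).testBit i <;> simp
  · rw [numN, Nat.testBit_ofBits_ge _ _ (by omega), Nat.testBit_two_pow]
    simp; omega

theorem mu_gen (g : Fin (1 + F.NT + F.NW)) (c : Fin F.O.n → ZMod 2) :
    F.mu (F.gen g.val) c = linC F.O.n (F.muG.getD g.val []) c := by
  refine F.mu_eq_lin _ (fun j => ?_) c
  rw [← F.mu_ok g j, mu_apply, rep, numN_unit]
  have hl : (F.repL.getD (2 ^ j.val) []).length = 24 := by
    have := F.rep_len (bitsN F.O.n (2 ^ j.val)); rwa [numN_unit] at this
  have hL : IsLeech (H15.toVec (F.repL.getD (2 ^ j.val) [])) := by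
    have := (F.fixV_rep (bitsN F.O.n (2 ^ j.val))).1; rwa [rep, numN_unit] at this
  rw [gen]
  split_ifs with h0 h1 h2
  · obtain ⟨e, hlen⟩ := act_matAut F.mat_ok hl hL
    rw [genM, e, F.code_toVec hlen]
  · rw [genT]
    refine (congrArg F.code (act_monoList (I := F.tauI.getD (g.val - 1) []) (F.tau_mem _)
      natWord_zero_mem (F.idx_tau_symm _) hL)).trans ?_
    rw [F.code_toVec (by simp [monoList])]
  · refine (congrArg F.code (act_monoList (I := List.range 24) (one_mem M24) (F.fw_spec _).1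
      (fun q => by rw [range_idx]; rfl) hL)).trans ?_
    rw [F.code_toVec (by simp [monoList])]
  · omega

/-- The element of a word. -/
noncomputable def wordElt (w : List ℕ) : Co0 := w.foldr (fun g x => F.gen g * x) 1

theorem wordElt_mem (w : List ℕ) : F.wordElt w ∈ F.K := by
  induction w with
  | nil => exact one_mem _
  | cons g w ih => exact mul_mem (F.gen_mem g) ih

theorem mu_wordElt (w : List ℕ) (hw : ∀ g ∈ w, g < 1 + F.NT + F.NW) (c : Fin F.O.n → ZMod 2) :
    F.mu (F.wordElt w) c = w.foldr (fun g x => linC F.O.n (F.muG.getD g []) x) c := by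
  induction w with
  | nil => exact F.mu_one c
  | cons g w ih =>
    show F.mu (F.gen g * F.wordElt w) c = _
    rw [F.mu_mul (F.wordElt_mem w), ih fun a ha => hw a (List.mem_cons_of_mem _ ha),
      List.foldr_cons]
    exact F.mu_gen ⟨g, hw g (List.mem_cons_self ..)⟩ _

/-! ### The decomposition -/

theorem eight_congr : ∃ t, IsLeech t ∧
    eight oo - F.rep (bitsN F.O.n (F.S.getD 0 0)) = 2 • t := by
  refine ⟨H15.toVec F.tL, H15.leechOk_spec F.eight_ok.1, funext fun q => ?_⟩
  have hS : F.S.getD 0 0 < 2 ^ F.O.n := F.S_lt _ (H15.getD_mem F.S_ne)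
  have e : numN (bitsN F.O.n (F.S.getD 0 0)) = F.S.getD 0 0 := by
    refine Nat.eq_of_testBit_eq fun i => ?_
    by_cases hi : i < F.O.n
    · rw [numN, Nat.testBit_ofBits_lt _ _ hi, bitsN]
      cases (F.S.getD 0 0).testBit i <;> simp
    · rw [numN, Nat.testBit_ofBits_ge _ _ (by omega), Nat.testBit_lt_two_pow
        (lt_of_lt_of_le hS (Nat.pow_le_pow_right (by norm_num) (by omega)))]
  have h8 : (eight oo : V) q = if H15.idx q = 23 then (8 : ℤ) else 0 := by
    revert q; decide +kernel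
  rw [rep, e]
  simp only [Pi.sub_apply, Pi.smul_apply, h8, nsmul_eq_mul, Nat.cast_ofNat]
  exact F.eight_ok.2 ⟨_, H15.idx_lt q⟩

/-- The class of the image of the standard frame is among the classes. -/
theorem exists_class {k : Co0} (hk : k ∈ F.K) : ∃ c : Fin F.S.length,
    F.mu k (bitsN F.O.n (F.S.getD 0 0)) = bitsN F.O.n (F.S.getD c.val 0) := by
  set w0 := bitsN F.O.n (F.S.getD 0 0)
  obtain ⟨t, ht, et⟩ := F.eight_congr
  set d := F.mu k w0 with hd
  suffices h : numN d ∈ F.S by
    obtain ⟨i, hi, e⟩ := List.getElem_of_mem h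
    exact ⟨⟨i, hi⟩, by rw [List.getD_eq_getElem _ _ hi, e, bitsN_numN]⟩
  rcases (F.rep_spec d).2.2 with h | h
  · exact h
  exfalso
  have hv := F.fixV_act hk (F.fixV_rep w0)
  obtain ⟨s, hs, es⟩ := F.congr_of_code hv (F.fixV_rep d) (by rw [F.code_rep]; rfl)
  rw [← dot_toVec (F.rep_len d) (F.rep_len d)] at h
  have h' : sqNorm (F.rep d) ≤ 48 := by rw [← dotInt_self]; exact h
  have hn : sqNorm (act k (eight oo)) = 64 := by
    rw [sqNorm_act k (isLeech_eight oo), sqNorm_eight]
  have e' : act k (eight oo) - F.rep d = 2 • (act k t + s) := by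
    rw [nsmul_add, ← act_two_smul k ht, ← et, act_sub k (isLeech_eight oo) (F.fixV_rep w0).1, ← es]
    abel
  rcases congr_two_cases (isLeech_act k (isLeech_eight oo)) (F.fixV_rep d).1
    ((isLeech_act k ht).add hs) e' hn.le (by omega) with a | a | a
  · rw [a, hn] at h'; omega
  · rw [a, sqNorm_neg, hn] at h'; omega
  · omega

theorem act_pow {x : V} (hx : IsLeech x) (m : ℕ) :
    act (F.σ ^ m) x = permFun (F.O.π ^ m) x := by
  induction m with
  | zero => rw [pow_zero, pow_zero, one_act]; rfl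
  | succ m ih =>
    rw [pow_succ', pow_succ', mul_act, ih, F.act_σ (hx.permFun (pow_mem F.O.mem m))]
    rfl

theorem comm_cases {π : Equiv.Perm GolayPt} (hπ : π ∈ M24) (hc : π * F.O.π = F.O.π * π) :
    ∃ (m : ℕ) (t : Fin F.NT), π = F.O.π ^ m * F.tau t := by
  obtain ⟨t, m, e⟩ := F.comm_ok π hπ hc
  refine ⟨m.val, t, F.O.eq_of_comm hc ?_ fun k => H15.idx_injective ?_⟩
  · rw [mul_assoc, F.tau_comm, ← mul_assoc, ← pow_succ, pow_succ', mul_assoc]
  · rw [Equiv.Perm.mul_apply, F.O.idx_pow, F.idx_tau, e k, Orb.r, idx_pt (F.O.rep_lt k)]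

theorem exists_fw {c : GolayPt → ZMod 2} (hc : c ∈ golayCode) (h : ∀ q, c (F.O.π q) = c q) :
    ∃ n, c = F.fw n := by
  set b : Fin F.O.n → ZMod 2 := fun k => c (F.O.r k) with hb
  have hval : ∀ q, c q = b (F.O.orbitOf q) := fun q => F.O.invariant_eq h q
  have e : c = H9.natWord
      (Nat.ofBits fun q : Fin 24 => (numN b).testBit (F.O.lab.getD q.val 0)) := by
    funext q
    show _ = if Nat.testBit (Nat.ofBits _) (H9.gIdx q).val = true then (1 : ZMod 2) else 0
    rw [Nat.testBit_ofBits_lt _ _ (H9.gIdx q).2, hval q]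
    show _ = if (numN b).testBit (F.O.lab.getD (H15.idx q) 0) = true then _ else _
    rw [numN, Nat.testBit_ofBits_lt _ _ (F.O.lab_lt q)]
    exact (by decide : ∀ z : ZMod 2, z = if decide (z = 1) = true then 1 else 0) _
  obtain ⟨n, hn⟩ := F.inv_words ⟨numN b, numN_lt b⟩
    (test_of_word (Nat.ofBits_lt_two_pow _) (e ▸ hc))
  exact ⟨n, by rw [fw, hn]; exact e⟩

theorem exists_split {k : Co0} (hk : k ∈ F.K) : ∃ (c : Fin F.S.length) (m : ℕ) (n : Fin F.NW)
    (t : Fin F.NT), k = F.wordElt (F.words.getD c.val []) * F.σ ^ m * F.genW n * F.genT t := by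
  obtain ⟨c, hc⟩ := F.exists_class hk
  set g := F.wordElt (F.words.getD c.val []) with hg
  set w0 := bitsN F.O.n (F.S.getD 0 0)
  have hgK : g ∈ F.K := F.wordElt_mem _
  have hh : g⁻¹ * k ∈ F.K := mul_mem (inv_mem hgK) hk
  have hw : F.mu (g⁻¹ * k) w0 = w0 := by
    rw [F.mu_mul hk, hc, ← (F.word_ok c).2, ← F.mu_wordElt _ (F.word_ok c).1, ← F.mu_mul hgK,
      inv_mul_cancel, F.mu_one]
  have hcross : g⁻¹ * k ∈ crossStab := by
    obtain ⟨t, ht, et⟩ := F.eight_congr
    obtain ⟨s, hs, es⟩ := F.congr_of_code (F.fixV_act hh (F.fixV_rep w0)) (F.fixV_rep w0)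
      (by rw [F.code_rep]; exact hw)
    refine mem_crossStab_iff_class.2 ⟨act (g⁻¹ * k) t + s - t,
      ((isLeech_act _ ht).add hs).sub ht, ?_⟩
    rw [smul_sub, nsmul_add, ← act_two_smul _ ht, ← et, ← es,
      act_sub _ (isLeech_eight oo) (F.fixV_rep w0).1]
    abel
  obtain ⟨π, hπ, e, he, hk'⟩ := exists_mono hcross
  have h := F.mem_K.1 hh
  have he' : (fun q => e (F.O.π.symm q)) ∈ golayCode := ((mem_M24_iff _).1 F.O.mem e).1 he
  have h1 : monoAut π hπ e he * F.σ = monoAut (π * F.O.π) (mul_mem hπ F.O.mem) e he :=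
    act_eq_of_forall fun x hx => by
      rw [mul_act, F.act_σ hx, act_monoAut hπ he (hx.permFun F.O.mem), act_monoAut _ he hx]
      rfl
  have h2 : F.σ * monoAut π hπ e he =
      monoAut (F.O.π * π) (mul_mem F.O.mem hπ) _ he' := act_eq_of_forall fun x hx => by
    rw [mul_act, act_monoAut hπ he hx, F.act_σ ((hx.permFun hπ).signFun he), act_monoAut _ he' hx]
    rfl
  rw [hk', h1, h2] at h
  obtain ⟨e1, e2⟩ := monoAut_injective h
  obtain ⟨m, u, rfl⟩ := F.comm_cases hπ e1
  obtain ⟨n, rfl⟩ := F.exists_fw he fun q => by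
    have := congrFun e2 (F.O.π q)
    rwa [Equiv.symm_apply_apply] at this
  refine ⟨c, m, n, u, ?_⟩
  have hinv : ∀ j q, F.fw n ((F.O.π ^ j).symm q) = F.fw n q := by
    intro j q
    obtain ⟨r, rfl⟩ := (F.O.π ^ j).surjective q
    rw [Equiv.symm_apply_apply]
    induction j with
    | zero => rfl
    | succ j ih => rw [pow_succ', Equiv.Perm.mul_apply, (F.fw_spec n).2, ← ih]
  have hsplit : g⁻¹ * k = F.σ ^ m * (F.genW n * F.genT u) := by
    rw [hk']
    refine act_eq_of_forall fun x hx => ?_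
    rw [mul_act, mul_act, genT, genW, act_monoAut _ _ hx, act_monoAut _ _ hx,
      act_monoAut _ _ ((hx.permFun (F.tau_mem u)).signFun natWord_zero_mem),
      F.act_pow ((((hx.permFun (F.tau_mem u)).signFun natWord_zero_mem).permFun (one_mem _)).signFun
        (F.fw_spec n).1)]
    funext q
    simp [signFun, permFun, hinv m q, natWord_zero, Equiv.Perm.mul_def, Equiv.Perm.one_def]
  rw [mul_assoc, mul_assoc, ← hsplit, mul_inv_cancel_left]

end Frame

end Cfsg.Agent.H18.Monster.Prime
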