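import Mathlib

/-!
Elements of prime order: conjugacy of Sylow subgroups of prime order and of coprime lifts.
-/

set_option autoImplicit false

namespace Cfsg.Agent.H18.Monster.Prime

/-- Two subgroups of order `p` are conjugate when `p²` does not divide the group order. -/
theorem conj_prime {Γ : Type*} [Group Γ] [Finite Γ] {p : ℕ} [hp : Fact p.Prime]
    (hsq : ¬ p ^ 2 ∣ Nat.card Γ) {H K : Subgroup Γ} (hH : Nat.card H = p) (hK : Nat.card K = p) :
    ∃ g : Γ, K.map (MulAut.conj g).toMonoidHom = H := by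
  have hn : Nat.card Γ ≠ 0 := Nat.card_pos.ne'
  have h1 : (Nat.card Γ).factorization p = 1 := by
    have a := (hp.out.dvd_iff_one_le_factorization hn).1 (hH ▸ H.card_subgroup_dvd_card)
    have b : ¬ 2 ≤ (Nat.card Γ).factorization p := fun h =>
      hsq ((hp.out.pow_dvd_iff_le_factorization hn).2 h)
    omega
  let P : Sylow p Γ := Sylow.ofCard H (by rw [hH, h1, pow_one])
  let R : Sylow p Γ := Sylow.ofCard K (by rw [hK, h1, pow_one])
  obtain ⟨g, hg⟩ := MulAction.exists_smul_eq Γ R P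
  refine ⟨g, ?_⟩
  have h := congrArg (fun S : Sylow p Γ => (S : Subgroup Γ)) hg
  simp only [P, R] at h
  exact h

/-- Lifts of odd prime order of one element of a quotient by a 2-group are conjugate. -/
theorem conj_lift {Γ : Type*} [Group Γ] [Finite Γ] (Q : Subgroup Γ) [Q.Normal] {p n : ℕ}
    [hp : Fact p.Prime] (hodd : p ≠ 2) (hQ : Nat.card Q = 2 ^ n) {b y : Γ} (hb : orderOf b = p)
    (hy : orderOf y = p) (e : (QuotientGroup.mk y : Γ ⧸ Q) = QuotientGroup.mk b) :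
    ∃ u ∈ Q, u * y * u⁻¹ = b := by
  have hcop : Nat.Coprime p (Nat.card Q) := by
    rw [hQ]
    exact Nat.Coprime.pow_right n ((Nat.coprime_primes hp.out Nat.prime_two).2 hodd)
  have hob : orderOf (QuotientGroup.mk b : Γ ⧸ Q) = p := by
    refine orderOf_eq_prime (by rw [← QuotientGroup.mk_pow, ← hb, pow_orderOf_eq_one]; rfl) fun h1 => ?_
    rw [QuotientGroup.eq_one_iff] at h1
    have := Subgroup.orderOf_coe (⟨b, h1⟩ : Q) ▸ orderOf_dvd_natCard (⟨b, h1⟩ : Q)
    rw [hb] at this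
    exact hp.out.ne_one (Nat.Coprime.eq_one_of_dvd hcop this)
  set P : Subgroup Γ := (Subgroup.zpowers (QuotientGroup.mk b : Γ ⧸ Q)).comap (QuotientGroup.mk' Q)
    with hP
  have hcard : Nat.card P = p * Nat.card Q := by
    have h1 := Subgroup.card_mul_index P
    rw [hP, Subgroup.index_comap_of_surjective _ (QuotientGroup.mk'_surjective _)] at h1
    have h2 := Subgroup.card_mul_index (Subgroup.zpowers (QuotientGroup.mk b : Γ ⧸ Q))
    have h3 := Subgroup.card_eq_card_quotient_mul_card_subgroup Q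
    rw [Nat.card_zpowers, hob] at h2
    rw [← h2] at h3
    refine Nat.eq_of_mul_eq_mul_right (Nat.pos_of_ne_zero (Subgroup.index_ne_zero_of_finite
      (H := Subgroup.zpowers (QuotientGroup.mk b : Γ ⧸ Q)))) (h1.trans (h3.trans (by ring)))
  have hsq : ¬ p ^ 2 ∣ Nat.card P := by
    intro h
    rw [hcard, pow_two] at h
    exact hp.out.ne_one
      (Nat.Coprime.eq_one_of_dvd hcop (Nat.dvd_of_mul_dvd_mul_left hp.out.pos h))
  have hbP : b ∈ P := Subgroup.mem_zpowers (QuotientGroup.mk b : Γ ⧸ Q)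
  have hyP : y ∈ P := by
    show (QuotientGroup.mk y : Γ ⧸ Q) ∈ Subgroup.zpowers (QuotientGroup.mk b : Γ ⧸ Q)
    rw [e]; exact Subgroup.mem_zpowers _
  obtain ⟨c, hc⟩ := conj_prime hsq (H := Subgroup.zpowers (⟨b, hbP⟩ : P))
    (K := Subgroup.zpowers (⟨y, hyP⟩ : P))
    (by rw [Nat.card_zpowers, ← Subgroup.orderOf_coe]; exact hb)
    (by rw [Nat.card_zpowers, ← Subgroup.orderOf_coe]; exact hy)
  obtain ⟨i, hi⟩ := Subgroup.mem_zpowers_iff.1 (show (QuotientGroup.mk (c : Γ) : Γ ⧸ Q) ∈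
    Subgroup.zpowers (QuotientGroup.mk b : Γ ⧸ Q) from c.2)
  have hu : (b ^ i)⁻¹ * (c : Γ) ∈ Q := by
    rw [← QuotientGroup.eq, QuotientGroup.mk_zpow, hi]
  refine ⟨_, hu, ?_⟩
  have hmem : c * (⟨y, hyP⟩ : P) * c⁻¹ ∈ Subgroup.zpowers (⟨b, hbP⟩ : P) := by
    rw [← hc]; exact ⟨_, Subgroup.mem_zpowers _, rfl⟩
  obtain ⟨j, hj⟩ := Subgroup.mem_zpowers_iff.1 hmem
  have hj' : b ^ j = (c : Γ) * y * (c : Γ)⁻¹ := by
    have := congrArg Subtype.val hj
    simpa using this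
  have hj1 : (QuotientGroup.mk b : Γ ⧸ Q) ^ j = QuotientGroup.mk b := by
    rw [← QuotientGroup.mk_zpow, hj', QuotientGroup.mk_mul, QuotientGroup.mk_mul, e,
      QuotientGroup.mk_inv, ← hi]
    group
  have hdvd : (p : ℤ) ∣ j - 1 := by
    rw [show (p : ℤ) = (orderOf (QuotientGroup.mk b : Γ ⧸ Q) : ℤ) by rw [hob],
      orderOf_dvd_iff_zpow_eq_one, zpow_sub, zpow_one, hj1, mul_inv_cancel]
  have hbj : b ^ j = b := by
    have h1 : b ^ (j - 1) = 1 := by rw [← orderOf_dvd_iff_zpow_eq_one, hb]; exact hdvd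
    rw [zpow_sub, zpow_one] at h1
    exact mul_inv_eq_one.1 h1
  rw [hbj] at hj'
  calc (b ^ i)⁻¹ * (c : Γ) * y * ((b ^ i)⁻¹ * (c : Γ))⁻¹
      = (b ^ i)⁻¹ * ((c : Γ) * y * (c : Γ)⁻¹) * b ^ i := by group
    _ = b := by rw [← hj']; group

end Cfsg.Agent.H18.Monster.Prime
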