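import Cfsg.Agent.H18.Monster.Prime.Frame

/-!
Linear maps on codes written with numbers, for faster table tests.
-/

set_option autoImplicit false

namespace Cfsg.Agent.H18.Monster.Prime

/-- The image of a number under the linear map given by the images of the powers of two. -/
noncomputable def linN : ℕ → List ℕ → ℕ → ℕ
  | 0, _, _ => 0
  | d + 1, m, c => bif c.testBit d then Nat.xor (linN d m c) (m.getD d 0) else linN d m c

theorem bitsN_xor (n a b : ℕ) : bitsN n (Nat.xor a b) = bitsN n a + bitsN n b := by
  funext i
  show (if (a ^^^ b).testBit i.val then (1 : ZMod 2) else 0) = _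
  rw [Nat.testBit_xor, Pi.add_apply, bitsN, bitsN]
  cases a.testBit i.val <;> cases b.testBit i.val <;> decide

theorem combC_bitsN (n : ℕ) : ∀ (d : ℕ) (m : List ℕ) (c : ℕ),
    combC n d m (bitsN d c) = bitsN n (linN d m c)
  | 0, m, c => by
    funext i
    simp [combC, linN, bitsN]
  | d + 1, m, c => by
    funext i
    have h : combC n (d + 1) m (bitsN (d + 1) c) i =
        combC n d m (bitsN d c) i + bitsN (d + 1) c (Fin.last d) * bitsN n (m.getD d 0) i := by
      simp only [combC]
      rw [Fin.sum_univ_castSucc]
      rfl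
    rw [h, combC_bitsN n d m c,
      show bitsN (d + 1) c (Fin.last d) = if c.testBit d then 1 else 0 from rfl, linN]
    cases c.testBit d
    · simp
    · simp
      exact (congrFun (bitsN_xor _ _ _) i).symm

theorem linC_bitsN (n : ℕ) (m : List ℕ) (c : ℕ) :
    linC n m (bitsN n c) = bitsN n (linN n m c) := combC_bitsN n n m c

/-- Test that the images of a family of bases lie in the spans of the prescribed members. -/
noncomputable def permTest (n d N G : ℕ) (muG bas permG : List (List ℕ)) : Bool :=
  H15.allBelow (fun g => H15.allBelow (fun i => Nat.blt ((permG.getD g []).getD i 0) N &&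
    H15.allBelow (fun l => (List.range (2 ^ d)).any fun s =>
      linN d (bas.getD ((permG.getD g []).getD i 0) []) s ==
        linN n (muG.getD g []) ((bas.getD i []).getD l 0)) d) N) G

theorem permTest_spec {n d N G : ℕ} {muG bas permG : List (List ℕ)}
    (h : permTest n d N G muG bas permG = true) (g : Fin G) (i : Fin N) :
    (permG.getD g.val []).getD i.val 0 < N ∧
    ∀ l : Fin d, ∃ s : Fin d → ZMod 2,
      combC n d (bas.getD ((permG.getD g.val []).getD i.val 0) []) s =
        linC n (muG.getD g.val []) (bitsN n ((bas.getD i.val []).getD l.val 0)) := by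
  have h1 := H15.allBelow_eq_true (H15.allBelow_eq_true h g.val g.2) i.val i.2
  rw [Bool.and_eq_true, Nat.blt_eq] at h1
  refine ⟨h1.1, fun l => ?_⟩
  obtain ⟨s, -, hs⟩ := List.any_eq_true.1 (H15.allBelow_eq_true h1.2 l.val l.2)
  exact ⟨bitsN d s, by rw [combC_bitsN, linC_bitsN, beq_iff_eq.1 hs]⟩

/-- Test of the words of the classes. -/
noncomputable def wordsTest (n G : ℕ) (muG words : List (List ℕ)) (classes : List ℕ) : Bool :=
  H15.allBelow (fun c => (words.getD c []).all (fun g => Nat.blt g G) &&
    ((words.getD c []).foldr (fun g x => linN n (muG.getD g []) x) (classes.getD 0 0) ==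
      classes.getD c 0)) classes.length

theorem wordsTest_spec {n G : ℕ} {muG words : List (List ℕ)} {classes : List ℕ}
    (h : wordsTest n G muG words classes = true) (c : Fin classes.length) :
    (∀ g ∈ words.getD c.val [], g < G) ∧
    (words.getD c.val []).foldr (fun g x => linC n (muG.getD g []) x) (bitsN n (classes.getD 0 0)) =
      bitsN n (classes.getD c.val 0) := by
  have h1 := H15.allBelow_eq_true h c.val c.2
  rw [Bool.and_eq_true, List.all_eq_true, beq_iff_eq] at h1
  refine ⟨fun g hg => Nat.le_of_ble_eq_true (h1.1 g hg), ?_⟩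
  rw [← h1.2]
  generalize classes.getD 0 0 = x
  induction words.getD c.val [] with
  | nil => rfl
  | cons a w ih => rw [List.foldr_cons, List.foldr_cons, ih, linC_bitsN]

/-- Test that a family of bases spans different spaces. -/
noncomputable def spansTest (n d N : ℕ) (bas : List (List ℕ)) : Bool :=
  H15.allBelow (fun i => H15.allBelow (fun j => (i == j) ||
    !(H15.allBelow (fun l => (List.range (2 ^ d)).any fun s =>
      linN d (bas.getD j []) s % 2 ^ n == (bas.getD i []).getD l 0 % 2 ^ n) d)) N) N

theorem bitsN_mod {n a b : ℕ} (h : bitsN n a = bitsN n b) : a % 2 ^ n = b % 2 ^ n := by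
  refine Nat.eq_of_testBit_eq fun i => ?_
  rw [Nat.testBit_mod_two_pow, Nat.testBit_mod_two_pow]
  by_cases hi : i < n
  · have h1 := congrFun h ⟨i, hi⟩
    simp only [bitsN] at h1
    revert h1
    cases a.testBit i <;> cases b.testBit i <;> simp
  · simp [hi]

theorem spansTest_spec {n d N : ℕ} {bas : List (List ℕ)} (h : spansTest n d N bas = true)
    (i j : Fin N) (hs : ∀ l : Fin d, ∃ s : Fin d → ZMod 2,
      combC n d (bas.getD j.val []) s = bitsN n ((bas.getD i.val []).getD l.val 0)) : i = j := by
  have h1 := H15.allBelow_eq_true (H15.allBelow_eq_true h i.val i.2) j.val j.2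
  rw [Bool.or_eq_true, beq_iff_eq, Bool.not_eq_true'] at h1
  rcases h1 with h1 | h1
  · exact Fin.ext h1
  exfalso
  rw [allBelow_intro fun l hl => ?_] at h1
  · cases h1
  obtain ⟨s, e⟩ := hs ⟨l, hl⟩
  rw [← bitsN_numN s, combC_bitsN] at e
  exact List.any_eq_true.2 ⟨numN s, List.mem_range.2 (numN_lt s), beq_iff_eq.2 (bitsN_mod e)⟩

end Cfsg.Agent.H18.Monster.Prime
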