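import Cfsg.Agent.H18.Monster.Prime.Setting
import Cfsg.Agent.H18.Monster.HeldSylow
import Cfsg.Agent.H14.CrossBlock

/-!
A Sylow subgroup of prime order of the centralizer of two commuting conjugates of the central
involution can be put in the position of a model, and the correcting element needed there.
-/

set_option autoImplicit false

namespace Cfsg.Agent.H18.Monster.Data

open Cfsg.Agent.H14

variable {G : Type*} [Group G] [Finite G] {z : G}
  {Q : Subgroup (Subgroup.centralizer ({z} : Set G))} [Q.Normal] (D : Data z Q)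
  {T : Type} [Group T] (M : Prime.Model T)

theorem not_sq_dvd_two {p : ℕ} (hp : p.Prime) (hodd : p ≠ 2) (hsq : ¬ p ^ 2 ∣ 244823040) (i : ℕ) :
    ¬ p ^ 2 ∣ 244823040 * 2 ^ i := fun h =>
  hsq ((((Nat.coprime_primes hp Nat.prime_two).2 hodd).pow 2 i).dvd_of_dvd_mul_right h)

include D in
theorem not_sq_dvd_pair (hsq : ¬ M.p ^ 2 ∣ 244823040) {q : Q} (h1 : IsConj z (gv q))
    (h2 : gv q ≠ z) :
    ¬ M.p ^ 2 ∣ Nat.card (Subgroup.centralizer ({z} : Set G) ⊓
      Subgroup.centralizer ({gv q} : Set G) : Subgroup G) := by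
  obtain ⟨j, hj⟩ := D.card_pair h1 h2
  rw [hj, show 2048 * 244823040 * 2 ^ j = 244823040 * 2 ^ (11 + j) by rw [pow_add]; ring]
  exact not_sq_dvd_two M.prime M.odd hsq _

include D in
theorem exists_primeElt (hsq : ¬ M.p ^ 2 ∣ 244823040) (hdvd : M.p ∣ 244823040)
    (hmove : ∃ x : GolayPt, M.π x ≠ x) {q : Q} (h1 : IsConj z (gv q)) (h2 : gv q ≠ z)
    (B : Subgroup G) (hB : B ≤ Subgroup.centralizer ({z, gv q} : Set G))
    (hBp : Nat.card B = M.p ^ (Nat.card ↥(Subgroup.centralizer ({z, gv q} : Set G))).factorization M.p) :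
    ∃ (D' : Data z Q) (b : G), PrimeElt D' M b ∧ B = Subgroup.zpowers b := by
  haveI : Fact (Nat.Prime M.p) := ⟨M.prime⟩
  set L := Subgroup.centralizer ({z} : Set G) ⊓ Subgroup.centralizer ({gv q} : Set G) with hL
  have hpair : Subgroup.centralizer ({z, gv q} : Set G) = L := by
    ext g; simp [hL, Subgroup.mem_centralizer_iff]
  rw [hpair] at hB hBp
  obtain ⟨j, hj⟩ := D.card_pair h1 h2
  have hf : (Nat.card L).factorization M.p = 1 := by
    have hn : Nat.card L ≠ 0 := Nat.card_pos.ne'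
    have a := (M.prime.dvd_iff_one_le_factorization hn).1 (by
      rw [hj]; exact dvd_mul_of_dvd_left (dvd_mul_of_dvd_right hdvd _) _)
    have b : ¬ 2 ≤ (Nat.card L).factorization M.p := fun h => D.not_sq_dvd_pair M hsq h1 h2
      ((M.prime.pow_dvd_iff_le_factorization (k := 2) hn).2 h)
    omega
  rw [hf, pow_one] at hBp
  obtain ⟨⟨b₀, hb₀B⟩, hb₀1⟩ : ∃ b : B, b ≠ 1 := by
    haveI : Nontrivial B := Finite.one_lt_card_iff_nontrivial.1 (hBp ▸ M.prime.one_lt)
    exact exists_ne 1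
  have hord : orderOf b₀ = M.p := by
    have h : orderOf (⟨b₀, hb₀B⟩ : B) ∣ M.p := hBp ▸ orderOf_dvd_natCard _
    rcases (Nat.dvd_prime M.prime).1 h with h | h
    · exact absurd (orderOf_eq_one_iff.1 h) hb₀1
    · rwa [← Subgroup.orderOf_coe] at h
  obtain ⟨D₁, hq⟩ := D.exists_standard h1 h2
  obtain ⟨g, hg⟩ := isConj_iff.1 h1
  have hstd : Std D₁ q g := ⟨hq, hg, h2⟩
  have hb₀C : b₀ ∈ Subgroup.centralizer ({z} : Set G) := (hB hb₀B).1
  set c₀ : Subgroup.centralizer ({z} : Set G) := ⟨b₀, hb₀C⟩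
  set X : Subgroup Cfsg.Spor.Co1 := crossStab.map (QuotientGroup.mk' (Subgroup.center Co0)) with hX
  have hyX : D₁.e (QuotientGroup.mk c₀) ∈ X := by
    have hmem : (QuotientGroup.mk c₀ : Subgroup.centralizer ({z} : Set G) ⧸ Q) ∈
        crossStab.map hstd.toQuot := by
      rw [← hstd.stab_eq]; exact ⟨c₀, ⟨hb₀C, (hB hb₀B).2⟩, rfl⟩
    obtain ⟨k, hk, e⟩ := hmem
    exact ⟨k, hk, hstd.toQuot_eq_iff.1 e⟩
  have hordy : orderOf (D₁.e (QuotientGroup.mk c₀)) = M.p := by
    rw [MulEquiv.orderOf_eq]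
    refine orderOf_eq_prime ?_ fun e => ?_
    · rw [← QuotientGroup.mk_pow, show c₀ ^ M.p = 1 from Subtype.ext (by
        show b₀ ^ M.p = 1
        rw [← hord, pow_orderOf_eq_one]), QuotientGroup.mk_one]
    · rw [QuotientGroup.eq_one_iff] at e
      have h : orderOf b₀ ∣ 2 ^ 25 := by
        show orderOf ((c₀ : Subgroup.centralizer ({z} : Set G)) : G) ∣ _
        rw [Subgroup.orderOf_coe, show c₀ = ((⟨c₀, e⟩ : Q) : Subgroup.centralizer ({z} : Set G)) from rfl,
          Subgroup.orderOf_coe, show (2 : ℕ) ^ 25 = Nat.card Q from D₁.hset.2.2.2.1.symm]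
        exact orderOf_dvd_natCard _
      rw [hord] at h
      exact M.odd ((Nat.prime_dvd_prime_iff_eq M.prime Nat.prime_two).1 (M.prime.dvd_of_dvd_pow h))
  have hσX : (QuotientGroup.mk M.σ : Cfsg.Spor.Co1) ∈ X :=
    ⟨_, permAut_mem_crossStab _ M.hπ, rfl⟩
  have hordσ : orderOf (QuotientGroup.mk M.σ : Cfsg.Spor.Co1) = M.p := by
    refine orderOf_eq_prime (by rw [← QuotientGroup.mk_pow, M.σ_pow_eq, QuotientGroup.mk_one])
      fun e => ?_
    rw [QuotientGroup.eq_one_iff, mem_center_iff] at e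
    rcases e with e | e
    · obtain ⟨x, hx⟩ := hmove
      have h := congrArg (fun k => act k (eight x)) e
      simp only [one_act, M.act_σ (isLeech_eight _), permFun_eight] at h
      exact hx (eight_injective h)
    · have h := M.σ_pow_eq
      rw [e, M.negOne_pow] at h
      exact negOne_ne_one h
  have hsqX : ¬ M.p ^ 2 ∣ Nat.card X := by
    intro h
    have := dvd_trans h (Subgroup.card_map_dvd (H := crossStab) (QuotientGroup.mk' (Subgroup.center Co0)))
    rw [exists_crossStab_card, show 4096 * 244823040 = 244823040 * 2 ^ 12 by norm_num] at this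
    exact not_sq_dvd_two M.prime M.odd hsq _ this
  obtain ⟨⟨x, k, hk, hkx⟩, hx⟩ := Prime.conj_prime (p := M.p) hsqX
    (H := Subgroup.zpowers (⟨_, hyX⟩ : X)) (K := Subgroup.zpowers (⟨_, hσX⟩ : X))
    (by rw [Nat.card_zpowers, ← Subgroup.orderOf_coe]; exact hordy)
    (by rw [Nat.card_zpowers, ← Subgroup.orderOf_coe]; exact hordσ)
  have hm : (⟨x, ⟨k, hk, hkx⟩⟩ : X) * ⟨_, hσX⟩ * (⟨x, ⟨k, hk, hkx⟩⟩ : X)⁻¹ ∈
      Subgroup.zpowers (⟨_, hyX⟩ : X) := by
    rw [← hx]; exact ⟨_, Subgroup.mem_zpowers _, rfl⟩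
  obtain ⟨i, hi⟩ := Subgroup.mem_zpowers_iff.1 hm
  have hi' : D₁.e (QuotientGroup.mk c₀) ^ i = x * QuotientGroup.mk M.σ * x⁻¹ := by
    have := congrArg Subtype.val hi
    simpa using this
  have hbz : b₀ ^ i * z = z * b₀ ^ i :=
    ((show Commute b₀ z from Subgroup.mem_centralizer_singleton_iff.1 hb₀C).zpow_left i).eq
  have hne : b₀ ^ i ≠ 1 := by
    intro e
    have e' : D₁.e (QuotientGroup.mk c₀) ^ i = 1 := by
      rw [← map_zpow, ← QuotientGroup.mk_zpow, show c₀ ^ i = 1 from Subtype.ext (by simpa using e),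
        QuotientGroup.mk_one, map_one]
    rw [hi', conj_eq_one_iff] at e'
    rw [e', orderOf_one] at hordσ
    exact M.prime.ne_one hordσ.symm
  have hBmem : b₀ ^ i ∈ B := B.zpow_mem hb₀B i
  have hbord : orderOf (b₀ ^ i) = M.p := by
    have h : orderOf (⟨b₀ ^ i, hBmem⟩ : B) ∣ M.p := hBp ▸ orderOf_dvd_natCard _
    rcases (Nat.dvd_prime M.prime).1 h with h | h
    · exact absurd (congrArg Subtype.val (orderOf_eq_one_iff.1 h)) hne
    · rwa [← Subgroup.orderOf_coe] at h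
  refine ⟨D₁.twist k, b₀ ^ i, ⟨hbz, hbord, ?_⟩, ?_⟩
  · show (MulAut.conj (QuotientGroup.mk k : Cfsg.Spor.Co1)⁻¹)
      (D₁.e (QuotientGroup.mk _)) = _
    rw [show (⟨b₀ ^ i, Subgroup.mem_centralizer_singleton_iff.2 hbz⟩ :
      Subgroup.centralizer ({z} : Set G)) = c₀ ^ i from Subtype.ext (by simp [c₀]),
      QuotientGroup.mk_zpow, map_zpow, hi', ← hkx, MulAut.conj_apply]
    simp only [QuotientGroup.mk'_apply]
    group
  · refine (Subgroup.eq_of_le_of_card_ge (by rw [Subgroup.zpowers_le]; exact hBmem) ?_).symm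
    rw [Nat.card_zpowers, hbord, hBp]

namespace PrimeElt

variable {D} {M} {b : G} (S : PrimeElt D M b)
include S

/-- An element exchanging `z` and the marked conjugate can be corrected to normalize the group of
`b`. -/
theorem norm_of_sq (hsq : ¬ M.p ^ 2 ∣ 244823040) (w : G)
    (hwz : w * z * w⁻¹ = ((S.sec M.mark : cen b z) : G))
    (hwx : w * ((S.sec M.mark : cen b z) : G) * w⁻¹ = z) :
    ∃ l : G, l * z = z * l ∧
      l * ((S.sec M.mark : cen b z) : G) = ((S.sec M.mark : cen b z) : G) * l ∧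
      l * w * b * (l * w)⁻¹ ∈ Subgroup.zpowers b := by
  haveI : Fact (Nat.Prime M.p) := ⟨M.prime⟩
  set r := S.sec M.mark with hr
  set x := ((r : cen b z) : G) with hx
  have hxb : x * b = b * x := Subgroup.mem_centralizer_singleton_iff.1 (r : cen b z).2.2
  obtain ⟨h1, h2⟩ := S.conj_mark
  rw [← hr] at h1 h2
  set L : Subgroup G := Subgroup.centralizer ({z} : Set G) ⊓ Subgroup.centralizer ({x} : Set G)
    with hL
  have memL : ∀ a : G, a ∈ L ↔ a * z = z * a ∧ a * x = x * a := fun a => by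
    rw [hL, Subgroup.mem_inf, Subgroup.mem_centralizer_singleton_iff,
      Subgroup.mem_centralizer_singleton_iff]
  have hbL : b ∈ L := (memL b).2 ⟨S.hzb, hxb.symm⟩
  have hwL : w * b * w⁻¹ ∈ L := by
    refine (memL _).2 ⟨?_, ?_⟩
    · calc w * b * w⁻¹ * z = w * b * w⁻¹ * (w * x * w⁻¹) := by rw [hwx]
        _ = w * (b * x) * w⁻¹ := by group
        _ = w * (x * b) * w⁻¹ := by rw [hxb]
        _ = (w * x * w⁻¹) * (w * b * w⁻¹) := by group
        _ = z * (w * b * w⁻¹) := by rw [hwx]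
    · calc w * b * w⁻¹ * x = w * b * w⁻¹ * (w * z * w⁻¹) := by rw [hwz]
        _ = w * (b * z) * w⁻¹ := by group
        _ = w * (z * b) * w⁻¹ := by rw [S.hzb]
        _ = (w * z * w⁻¹) * (w * b * w⁻¹) := by group
        _ = x * (w * b * w⁻¹) := by rw [hwz]
  have hsqL : ¬ M.p ^ 2 ∣ Nat.card L := by
    have := D.not_sq_dvd_pair M hsq (q := S.qOf r) (by rw [S.gv_qOf]; exact h1)
      (by rw [S.gv_qOf]; exact h2)
    rwa [S.gv_qOf] at this
  obtain ⟨l, hl⟩ := Prime.conj_prime (p := M.p) hsqL (H := Subgroup.zpowers (⟨b, hbL⟩ : L))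
    (K := Subgroup.zpowers (⟨_, hwL⟩ : L))
    (by rw [Nat.card_zpowers, ← Subgroup.orderOf_coe]; exact S.ord)
    (by
      rw [Nat.card_zpowers, ← Subgroup.orderOf_coe]
      show orderOf (MulAut.conj w b) = M.p
      rw [MulEquiv.orderOf_eq, S.ord])
  refine ⟨(l : G), ((memL _).1 l.2).1, ((memL _).1 l.2).2, ?_⟩
  have hm : l * (⟨_, hwL⟩ : L) * l⁻¹ ∈ Subgroup.zpowers (⟨b, hbL⟩ : L) := by
    rw [← hl]; exact ⟨_, Subgroup.mem_zpowers _, rfl⟩
  obtain ⟨j, hj⟩ := Subgroup.mem_zpowers_iff.1 hm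
  refine Subgroup.mem_zpowers_iff.2 ⟨j, ?_⟩
  have := congrArg Subtype.val hj
  simp only [SubgroupClass.coe_zpow, Subgroup.coe_mul, Subgroup.coe_inv] at this
  rw [this]; group

end PrimeElt

end Cfsg.Agent.H18.Monster.Data
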