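import Cfsg.Agent.H18.Monster.Prime.Lift
import Cfsg.Agent.H18.Monster.Prime.Model
import Cfsg.Agent.H18.Monster.SecondLocal
import Cfsg.Agent.H19.Cores
import Cfsg.Agent.H24.Extraspecial
import Cfsg.Agent.H73.CharPLocal

/-!
In a group of Monster type: an element of odd prime order in standard position, the extraspecial
fixed part of `Q`, and the structure of the centralizer of the central involution in the centralizer
of the element modulo that element.
-/

set_option autoImplicit false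

namespace Cfsg.Agent.H18.Monster

open Cfsg.Agent.H14
open scoped commutatorElement

namespace Data

variable {G : Type*} [Group G] [Finite G] {z : G}
  {Q : Subgroup (Subgroup.centralizer ({z} : Set G))} [Q.Normal] {T : Type} [Group T]

/-- An element of odd prime order of `C(z)` in the position described by a model. -/
structure PrimeElt (D : Data z Q) (M : Prime.Model T) (b : G) : Prop where
  hzb : b * z = z * b
  ord : orderOf b = M.p
  hb : D.e (QuotientGroup.mk ⟨b, Subgroup.mem_centralizer_singleton_iff.2 hzb⟩) =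
    (QuotientGroup.mk M.σ : Cfsg.Spor.Co1)

namespace PrimeElt

variable {D : Data z Q} {M : Prime.Model T} {b : G} (S : PrimeElt D M b)
include S

/-- The element in `C(z)`. -/
abbrev bC : Subgroup.centralizer ({z} : Set G) :=
  ⟨b, Subgroup.mem_centralizer_singleton_iff.2 S.hzb⟩

theorem orderC : orderOf S.bC = M.p := by rw [← Subgroup.orderOf_coe]; exact S.ord

theorem b_pow : b ^ M.p = 1 := by rw [← S.ord, pow_orderOf_eq_one]

theorem pow_two_eq {x : G} (h : x ^ 2 = 1) (hb : x ∈ Subgroup.zpowers b) : x = 1 := by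
  obtain ⟨j, rfl⟩ := Subgroup.mem_zpowers_iff.1 hb
  have hpp : (b ^ j) ^ M.p = 1 := by
    rw [← zpow_natCast, ← zpow_mul, mul_comm, zpow_mul, zpow_natCast, S.b_pow, one_zpow]
  obtain ⟨m, hm⟩ := M.odd_p
  rw [hm, pow_succ, pow_mul, h, one_pow, one_mul] at hpp
  exact hpp

/-- An element of `Q` commutes with `b` exactly when its class is fixed. -/
theorem comm_iff {x : V} (hx : IsLeech x) {q : Q}
    (hq : (QuotientGroup.mk q : Q ⧸ Subgroup.center Q) = D.mod.cls x) :
    gv q * b = b * gv q ↔ D.mod.cls (permFun M.π x) = D.mod.cls x := by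
  have h1 := D.cls_conj S.bC M.σ S.hb.symm hx q hq
  rw [M.act_σ hx] at h1
  rw [h1, ← hq]
  set r : Q := ⟨S.bC * q * S.bC⁻¹, (inferInstance : Q.Normal).conj_mem _ q.2 S.bC⟩ with hr
  have hrv : gv r = b * gv q * b⁻¹ := rfl
  constructor
  · intro h
    congr 1
    exact gv_injective (by rw [hrv, ← h, mul_inv_cancel_right])
  · intro h
    rw [QuotientGroup.eq, D.center_iff] at h
    rcases h with e | e
    · have := congrArg gv (inv_mul_eq_one.1 e)
      rw [hrv, mul_inv_eq_iff_eq_mul] at this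
      exact this.symm
    · exfalso
      have e2 : q = r * D.zQ := by rw [← e, mul_inv_cancel_left]
      have e3 : gv q = b * gv q * b⁻¹ * z := congrArg gv e2
      have hzq : z * gv q = gv q * z :=
        (Subgroup.mem_centralizer_singleton_iff.1 (q : Subgroup.centralizer ({z} : Set G)).2).symm
      have e4 : b * gv q * b⁻¹ = gv q * z := by
        calc b * gv q * b⁻¹ = b * gv q * b⁻¹ * z * z := by rw [mul_assoc _ z z, D.z_sq, mul_one]
          _ = gv q * z := by rw [← e3]
      have hn : ∀ n : ℕ, b ^ n * gv q * (b ^ n)⁻¹ = gv q * z ^ n := by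
        intro n
        induction n with
        | zero => simp
        | succ n ih =>
          have hbz : b * z ^ n * b⁻¹ = z ^ n := by
            rw [(show Commute b z from S.hzb).pow_right n |>.eq, mul_inv_cancel_right]
          calc b ^ (n + 1) * gv q * (b ^ (n + 1))⁻¹ = b * (b ^ n * gv q * (b ^ n)⁻¹) * b⁻¹ := by
                rw [pow_succ']; group
            _ = b * gv q * b⁻¹ * (b * z ^ n * b⁻¹) := by rw [ih]; group
            _ = gv q * z ^ (n + 1) := by rw [e4, hbz, mul_assoc, ← pow_succ']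
      obtain ⟨m, hm⟩ := M.odd_p
      have := hn M.p
      rw [S.b_pow, one_mul, inv_one, mul_one, hm, pow_succ, pow_mul, pow_two, D.z_sq, one_pow,
        one_mul] at this
      exact D.z_ne_one (left_eq_mul.1 this)

/-- The classes fixed by the permutation contain fixed vectors. -/
theorem exists_fixed {q : Q} (h : gv q * b = b * gv q) :
    ∃ v, Prime.FixV M.π v ∧ (QuotientGroup.mk q : Q ⧸ Subgroup.center Q) = D.mod.cls v := by
  obtain ⟨x, hx, hq⟩ := D.mod.cls_surj q
  obtain ⟨t, ht, et⟩ := (D.cls_eq_iff (hx.permFun M.hπ) hx).1 ((S.comm_iff hx hq.symm).1 h)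
  obtain ⟨v, u, hv, hu, eu⟩ := Prime.exists_fixV M.hπ M.odd_p M.pow_eq hx ht et
  exact ⟨v, hv, by rw [← hq, D.cls_eq_iff hx hv.1]; exact ⟨u, hu, eu⟩⟩

/-- A fixed vector gives an element commuting with `b`. -/
theorem comm_of_fixed {v : V} (hv : Prime.FixV M.π v) {q : Q}
    (hq : (QuotientGroup.mk q : Q ⧸ Subgroup.center Q) = D.mod.cls v) : gv q * b = b * gv q :=
  (S.comm_iff hv.1 hq).2 (by rw [hv.2])

theorem code_unique {v w : V} (hv : Prime.FixV M.π v) (hw : Prime.FixV M.π w)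
    (h : D.mod.cls v = D.mod.cls w) : M.code v = M.code w := by
  obtain ⟨t, ht, e⟩ := (D.cls_eq_iff hv.1 hw.1).1 h
  exact M.code_congr hw.1 ht e

/-! ### The subgroups -/

omit S in
/-- The joint centralizer. -/
abbrev cen (b : G) (z : G) : Subgroup G :=
  Subgroup.centralizer ({z} : Set G) ⊓ Subgroup.centralizer ({b} : Set G)

/-- The fixed part of `Q`. -/
def qFix (_S : PrimeElt D M b) : Subgroup (cen b z) := D.F.subgroupOf (cen b z)

/-- An element of the fixed part. -/
def mkFix {q : Q} (h : gv q * b = b * gv q) : S.qFix :=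
  ⟨⟨gv q, (q : Subgroup.centralizer ({z} : Set G)).2, Subgroup.mem_centralizer_singleton_iff.2 h⟩,
    D.mem_F.2 ⟨q, rfl⟩⟩

/-- The element of `Q`. -/
noncomputable def qOf (r : S.qFix) : Q := (D.mem_F.1 r.2).choose

theorem gv_qOf (r : S.qFix) : gv (S.qOf r) = ((r : cen b z) : G) := (D.mem_F.1 r.2).choose_spec

theorem qOf_mul (r u : S.qFix) : S.qOf (r * u) = S.qOf r * S.qOf u :=
  gv_injective (by
    show gv (S.qOf (r * u)) = gv (S.qOf r) * gv (S.qOf u)
    rw [S.gv_qOf, S.gv_qOf, S.gv_qOf]; rfl)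

theorem qOf_comm (r : S.qFix) : gv (S.qOf r) * b = b * gv (S.qOf r) := by
  rw [S.gv_qOf]; exact Subgroup.mem_centralizer_singleton_iff.1 (r : cen b z).2.2

theorem qOf_mkFix {q : Q} (h : gv q * b = b * gv q) : S.qOf (S.mkFix h) = q :=
  gv_injective (S.gv_qOf _)

/-- The fixed vector of an element. -/
noncomputable def vec (r : S.qFix) : V := (S.exists_fixed (S.qOf_comm r)).choose

theorem fixV_vec (r : S.qFix) : Prime.FixV M.π (S.vec r) :=
  (S.exists_fixed (S.qOf_comm r)).choose_spec.1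

theorem cls_vec (r : S.qFix) :
    (QuotientGroup.mk (S.qOf r) : Q ⧸ Subgroup.center Q) = D.mod.cls (S.vec r) :=
  (S.exists_fixed (S.qOf_comm r)).choose_spec.2

/-- The code of an element. -/
noncomputable def codeR : S.qFix →* Multiplicative (Fin M.n → ZMod 2) :=
  MonoidHom.mk' (fun r => Multiplicative.ofAdd (M.code (S.vec r))) fun r u => by
    rw [← ofAdd_add, ← M.code_add (S.fixV_vec r).1 (S.fixV_vec u).1]
    congr 1
    refine S.code_unique (S.fixV_vec _) ((S.fixV_vec r).add (S.fixV_vec u)) ?_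
    rw [D.mod.cls_add (S.fixV_vec r).1 (S.fixV_vec u).1, ← S.cls_vec, ← S.cls_vec, ← S.cls_vec,
      S.qOf_mul, QuotientGroup.mk_mul]

/-- The code as a vector. -/
noncomputable abbrev cd (r : S.qFix) : (Fin M.n → ZMod 2) := M.code (S.vec r)

theorem cd_mul (r u : S.qFix) : S.cd (r * u) = S.cd r + S.cd u :=
  congrArg Multiplicative.toAdd (map_mul S.codeR r u)

theorem cd_eq {v : V} (hv : Prime.FixV M.π v) (r : S.qFix)
    (h : (QuotientGroup.mk (S.qOf r) : Q ⧸ Subgroup.center Q) = D.mod.cls v) :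
    S.cd r = M.code v :=
  S.code_unique (S.fixV_vec r) hv (by rw [← S.cls_vec, h])

/-- The central involution in the fixed part. -/
def zF : S.qFix :=
  ⟨⟨z, D.z_mem_C, Subgroup.mem_centralizer_singleton_iff.2 S.hzb.symm⟩, D.mem_F.2 ⟨D.zQ, rfl⟩⟩

theorem qOf_zF : S.qOf S.zF = D.zQ := gv_injective (S.gv_qOf _)

theorem zF_ne_one : S.zF ≠ 1 := fun h =>
  D.z_ne_one (congrArg (fun r : S.qFix => ((r : cen b z) : G)) h)

theorem zF_sq : S.zF * S.zF = 1 := Subtype.ext (Subtype.ext D.z_sq)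

/-- The kernel of the code. -/
theorem cd_eq_zero {r : S.qFix} : S.cd r = 0 ↔ r = 1 ∨ r = S.zF := by
  have hcoe : ∀ u : S.qFix, S.qOf r = S.qOf u → r = u := fun u e => by
    apply Subtype.ext; apply Subtype.ext
    rw [← S.gv_qOf, ← S.gv_qOf, e]
  have hq1 : S.qOf (1 : S.qFix) = 1 := gv_injective (S.gv_qOf _)
  constructor
  · intro h
    obtain ⟨t, ht, e⟩ := M.ker (S.fixV_vec r) h
    have h1 : D.mod.cls (S.vec r) = 1 := by rw [e, two_nsmul, D.mod.cls_double ht]
    rcases (D.cls_eq_one_iff _ (S.cls_vec r)).1 h1 with e' | e'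
    · exact Or.inl (hcoe 1 (by rw [e', hq1]))
    · exact Or.inr (hcoe _ (by rw [e', S.qOf_zF]))
  · intro h
    rw [← M.code_zero]
    refine S.cd_eq (Prime.FixV.zero M.π) r ?_
    have h0 : D.mod.cls (0 : V) = 1 := by
      have h1 := D.mod.cls_double isLeech_zero
      rwa [add_zero] at h1
    rw [h0, QuotientGroup.eq_one_iff, D.center_iff]
    rcases h with rfl | rfl
    · exact Or.inl hq1
    · exact Or.inr S.qOf_zF

/-- An element with a given code. -/
noncomputable def sec (c : (Fin M.n → ZMod 2)) : S.qFix :=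
  S.mkFix (S.comm_of_fixed (M.fixV_rep c) (D.mod.mk_rep _))

theorem cd_sec (c : (Fin M.n → ZMod 2)) : S.cd (S.sec c) = c :=
  (S.cd_eq (M.fixV_rep c) _ (by rw [sec, S.qOf_mkFix, D.mod.mk_rep])).trans (M.code_rep c)

theorem cd_fibre (r : S.qFix) : r = S.sec (S.cd r) ∨ r = S.sec (S.cd r) * S.zF := by
  have h : S.cd ((S.sec (S.cd r))⁻¹ * r) = 0 := by
    have e := S.cd_mul (S.sec (S.cd r)) ((S.sec (S.cd r))⁻¹ * r)
    rw [mul_inv_cancel_left, S.cd_sec] at e
    exact left_eq_add.1 e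
  rcases S.cd_eq_zero.1 h with e | e
  · exact Or.inl (inv_mul_eq_one.1 e).symm
  · exact Or.inr (inv_mul_eq_iff_eq_mul.1 e)

theorem card_qFix : Nat.card S.qFix = 2 ^ (M.n + 1) := by
  have hsurj : Function.Surjective S.codeR := fun c =>
    ⟨S.sec (Multiplicative.toAdd c), congrArg Multiplicative.ofAdd (S.cd_sec _)⟩
  have h := Subgroup.card_mul_index S.codeR.ker
  rw [Subgroup.index_ker, MonoidHom.range_eq_top.2 hsurj, Subgroup.card_top] at h
  have hk : Nat.card S.codeR.ker = 2 := by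
    rw [Nat.card_eq_two_iff' (1 : S.codeR.ker)]
    refine ⟨⟨S.zF, MonoidHom.mem_ker.2 (congrArg Multiplicative.ofAdd (S.cd_eq_zero.2 (Or.inr rfl)))⟩,
      fun e => S.zF_ne_one (congrArg Subtype.val e), fun y hy => ?_⟩
    have hy0 : S.cd y.1 = 0 := congrArg Multiplicative.toAdd (MonoidHom.mem_ker.1 y.2)
    rcases S.cd_eq_zero.1 hy0 with e | e
    · exact absurd (Subtype.ext e) hy
    · exact Subtype.ext e
  rw [hk] at h
  rw [← h]
  simp [Nat.card_eq_fintype_card, pow_succ, mul_comm]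

theorem qOf_commute_iff (r u : S.qFix) : r * u = u * r ↔ (16 : ℤ) ∣ dotInt (S.vec r) (S.vec u) := by
  rw [← D.mod.commute_iff (S.fixV_vec r).1 (S.fixV_vec u).1 (S.cls_vec r) (S.cls_vec u),
    ← S.qOf_mul, ← S.qOf_mul]
  constructor
  · intro h; rw [h]
  · intro h
    apply Subtype.ext; apply Subtype.ext
    rw [← S.gv_qOf, ← S.gv_qOf, h]

theorem qFix_center (r : S.qFix) : r ∈ Subgroup.center S.qFix ↔ r = 1 ∨ r = S.zF := by
  constructor
  · intro h
    by_contra hne
    have hc : S.cd r ≠ 0 := fun e => hne (S.cd_eq_zero.1 e)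
    obtain ⟨j, hj⟩ := M.pairing (S.cd r) hc
    have h16 := (S.qOf_commute_iff r (S.sec j)).1 (Subgroup.mem_center_iff.1 h _).symm
    obtain ⟨t, ht, e⟩ := M.congr_of_code (S.fixV_vec r) (M.fixV_rep (S.cd r))
      (M.code_rep _).symm
    obtain ⟨s, hs, e'⟩ := M.congr_of_code (S.fixV_vec (S.sec j))
      (M.fixV_rep j) ((S.cd_sec _).trans (M.code_rep _).symm)
    exact hj (Prime.Model.dvd_of_congr (S.fixV_vec _).1 (M.fixV_rep (S.cd r)).1 ht hs e e' h16)
  · rintro (rfl | rfl)
    · exact one_mem _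
    · refine Subgroup.mem_center_iff.2 fun u => Subtype.ext (Subtype.ext ?_)
      exact Subgroup.mem_centralizer_singleton_iff.1 (u : cen b z).2.1

theorem qFix_extraspecial : Cfsg.IsExtraspecial 2 S.qFix := by
  haveI : Fact (Nat.Prime 2) := ⟨Nat.prime_two⟩
  refine H24.isExtraspecial_of (IsPGroup.of_card S.card_qFix) ?_ ?_ ?_ ?_
  · rw [Nat.card_eq_two_iff' (1 : Subgroup.center S.qFix)]
    refine ⟨⟨S.zF, (S.qFix_center _).2 (Or.inr rfl)⟩, fun e => S.zF_ne_one (congrArg Subtype.val e),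
      fun y hy => ?_⟩
    rcases (S.qFix_center _).1 y.2 with e | e
    · exact absurd (Subtype.ext e) hy
    · exact Subtype.ext e
  · intro htop
    have h := (S.qFix_center _).1 (htop ▸ Subgroup.mem_top (S.sec M.mark))
    have h0 := S.cd_eq_zero.2 h
    rw [S.cd_sec] at h0
    obtain ⟨t, ht, e⟩ := M.mark_congr
    have h1 := M.code_congr (M.fixV_rep _).1 ht e
    rw [M.code_rep, h0] at h1
    exact M.mark_ne_zero h0
  · intro a c
    rw [S.qFix_center, ← S.cd_eq_zero]
    have h : S.codeR ⁅a, c⁆ = 1 := by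
      rw [map_commutatorElement, commutatorElement_eq_one_iff_mul_comm]
      exact mul_comm _ _
    exact congrArg Multiplicative.toAdd h
  · intro a
    rw [S.qFix_center, ← S.cd_eq_zero, pow_two, S.cd_mul]
    funext i
    exact CharTwo.add_self_eq_zero _

/-- The class marked by the model contains conjugates of `z`. -/
theorem conj_mark : IsConj z ((S.sec M.mark : cen b z) : G) ∧ ((S.sec M.mark : cen b z) : G) ≠ z := by
  rw [← S.gv_qOf]
  refine (D.isConj_iff_norm64 _).2 ⟨⟨M.markVec, mem_leechLattice_iff.2 M.isLeech_markVec⟩,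
    M.sqNorm_markVec, ?_⟩
  refine (D.mod.cls_of M.isLeech_markVec).symm.trans ?_
  obtain ⟨t, ht, e⟩ := M.mark_congr
  rw [(D.cls_eq_iff M.isLeech_markVec (M.fixV_rep _).1).2 ⟨t, ht, e⟩, sec, S.qOf_mkFix]
  exact (D.mod.mk_rep _).symm

/-! ### Fusion in the centralizer of `b` -/

/-- The element `z x` is conjugate to `z` by an element commuting with `b`. -/
theorem conj_mul_z {r : S.qFix} (h1 : IsConj z ((r : cen b z) : G))
    (h2 : ((r : cen b z) : G) ≠ z)
    (hnorm : ∀ w : G, w * z * w⁻¹ = ((r : cen b z) : G) → w * ((r : cen b z) : G) * w⁻¹ = z →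
      ∃ l : G, l * z = z * l ∧ l * ((r : cen b z) : G) = ((r : cen b z) : G) * l ∧
        l * w * b * (l * w)⁻¹ ∈ Subgroup.zpowers b) :
    ∃ c : G, c * b = b * c ∧ c * z * c⁻¹ = z * ((r : cen b z) : G) := by
  set x := ((r : cen b z) : G) with hx
  have hxb : x * b = b * x := Subgroup.mem_centralizer_singleton_iff.1 (r : cen b z).2.2
  have hzx : z * x = x * z := (Subgroup.mem_centralizer_singleton_iff.1 (r : cen b z).2.1).symm
  -- an element of the fixed part moving `x`
  have hrc : ¬ r ∈ Subgroup.center S.qFix := by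
    rw [S.qFix_center]
    rintro (e | e)
    · obtain ⟨c, hc⟩ := isConj_iff.1 h1
      rw [hx, e] at hc
      exact D.z_ne_one (conj_eq_one_iff.1 hc)
    · exact h2 (by rw [hx, e]; rfl)
  obtain ⟨u, hu⟩ : ∃ u : S.qFix, u * r ≠ r * u := by
    by_contra hcon
    push Not at hcon
    exact hrc (Subgroup.mem_center_iff.2 hcon)
  have hux : ((u : cen b z) : G) * x * ((u : cen b z) : G)⁻¹ = z * x := by
    have hc : ⁅u, r⁆ ∈ Subgroup.center S.qFix := commutator_mem_center S.qFix_extraspecial u r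
    rcases (S.qFix_center _).1 hc with e | e
    · exact absurd (commutatorElement_eq_one_iff_mul_comm.1 e) hu
    · have := congrArg (fun r : S.qFix => ((r : cen b z) : G)) e
      simp only [commutatorElement_def, Subgroup.coe_mul, Subgroup.coe_inv] at this
      rw [← mul_inv_eq_iff_eq_mul]
      exact this
  -- an element exchanging `z` and `x`
  obtain ⟨g, hg⟩ := isConj_iff.1 h1
  have hgF : g * z * g⁻¹ ∈ D.F := D.mem_F.2 ⟨S.qOf r, by rw [hg, hx]; exact S.gv_qOf r⟩
  obtain ⟨q', hq'⟩ : ∃ q' : Q, gv q' = g⁻¹ * z * g := by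
    obtain ⟨a, ha, e⟩ := D.z_mem_conj hgF
    obtain ⟨q', hq'⟩ := D.mem_F.1 ha
    refine ⟨q', hq'.trans ?_⟩
    simp only [MulEquiv.coe_toMonoidHom, MulAut.conj_apply] at e
    rw [← e]; group
  have hq'z : gv q' ≠ z := by
    intro e
    rw [hq'] at e
    apply h2
    rw [hx] at hg ⊢
    rw [← hg]
    calc g * z * g⁻¹ = g * (g⁻¹ * z * g) * g⁻¹ := by rw [e]
      _ = z := by group
  obtain ⟨h, hhC, hh⟩ := D.exists_conj_second (q := S.qOf r) (r := q')
    (by rw [S.gv_qOf]; exact h1) (by rw [S.gv_qOf]; exact h2)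
    (by rw [hq']; exact isConj_iff.2 ⟨g⁻¹, by rw [inv_inv]⟩) hq'z
  rw [S.gv_qOf, ← hx, hq'] at hh
  have hhz : h * z * h⁻¹ = z := by
    rw [Subgroup.mem_centralizer_singleton_iff.1 hhC, mul_inv_cancel_right]
  set w := g * h with hw
  have hwz : w * z * w⁻¹ = x := by
    calc w * z * w⁻¹ = g * (h * z * h⁻¹) * g⁻¹ := by rw [hw]; group
      _ = x := by rw [hhz, hg]
  have hwx : w * x * w⁻¹ = z := by
    calc w * x * w⁻¹ = g * (h * x * h⁻¹) * g⁻¹ := by rw [hw]; group
      _ = z := by rw [hh]; group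
  obtain ⟨l, hlz, hlx, hnb⟩ := hnorm w hwz hwx
  set n := l * w with hn
  have hnz : n * z * n⁻¹ = x := by
    calc n * z * n⁻¹ = l * (w * z * w⁻¹) * l⁻¹ := by rw [hn]; group
      _ = x := by rw [hwz, hlx, mul_inv_cancel_right]
  have hnx : n * x * n⁻¹ = z := by
    calc n * x * n⁻¹ = l * (w * x * w⁻¹) * l⁻¹ := by rw [hn]; group
      _ = z := by rw [hwx, hlz, mul_inv_cancel_right]
  obtain ⟨j, hj⟩ := Subgroup.mem_zpowers_iff.1 hnb
  refine ⟨n * ((u : cen b z) : G) * n⁻¹, ?_, ?_⟩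
  · have hub : ((u : cen b z) : G) * b = b * ((u : cen b z) : G) :=
      Subgroup.mem_centralizer_singleton_iff.1 (u : cen b z).2.2
    -- `b` is a power of its image
    have hord : orderOf (b ^ j) = M.p := by
      rw [hj]
      show orderOf (MulAut.conj n b) = M.p
      rw [MulEquiv.orderOf_eq, S.ord]
    have hbmem : b ∈ Subgroup.zpowers (b ^ j) := by
      have hle : Subgroup.zpowers (b ^ j) = Subgroup.zpowers b :=
        Subgroup.eq_of_le_of_card_ge (by rw [Subgroup.zpowers_le]; exact ⟨j, rfl⟩)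
          (by rw [Nat.card_zpowers, Nat.card_zpowers, hord, S.ord])
      rw [hle]; exact Subgroup.mem_zpowers b
    obtain ⟨i, hi⟩ := Subgroup.mem_zpowers_iff.1 hbmem
    have hcomm : Commute (n * ((u : cen b z) : G) * n⁻¹) (b ^ j) := by
      rw [hj]
      show _ = _
      calc n * ((u : cen b z) : G) * n⁻¹ * (n * b * n⁻¹) = n * (((u : cen b z) : G) * b) * n⁻¹ := by
            group
        _ = n * (b * ((u : cen b z) : G)) * n⁻¹ := by rw [hub]
        _ = n * b * n⁻¹ * (n * ((u : cen b z) : G) * n⁻¹) := by group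
    have := (hcomm.zpow_right i).eq
    rwa [hi] at this
  · have e : n⁻¹ * z * n = x := by rw [← hnx]; group
    calc n * ((u : cen b z) : G) * n⁻¹ * z * (n * ((u : cen b z) : G) * n⁻¹)⁻¹
        = n * (((u : cen b z) : G) * (n⁻¹ * z * n) * ((u : cen b z) : G)⁻¹) * n⁻¹ := by group
      _ = n * (z * x) * n⁻¹ := by rw [e, hux]
      _ = (n * z * n⁻¹) * (n * x * n⁻¹) := by group
      _ = z * x := by rw [hnz, hnx, hzx]

/-! ### The quotient -/

variable [hn : ((Subgroup.zpowers b).subgroupOf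
  (Subgroup.centralizer ((Subgroup.zpowers b : Subgroup G) : Set G))).Normal]

omit S [Finite G] hn in
theorem mem_cent {a : G} :
    a ∈ Subgroup.centralizer ((Subgroup.zpowers b : Subgroup G) : Set G) ↔ a * b = b * a := by
  constructor
  · intro h
    exact (Subgroup.mem_centralizer_iff.1 h b (Subgroup.mem_zpowers b)).symm
  · intro h
    refine Subgroup.mem_centralizer_iff.2 fun y hy => ?_
    obtain ⟨j, rfl⟩ := Subgroup.mem_zpowers_iff.1 hy
    exact ((show Commute a b from h).zpow_right j).eq.symm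

omit S in
/-- The quotient of the centralizer of `b`. -/
abbrev NQ (b : G) [((Subgroup.zpowers b).subgroupOf
    (Subgroup.centralizer ((Subgroup.zpowers b : Subgroup G) : Set G))).Normal] : Type _ :=
  Subgroup.centralizer ((Subgroup.zpowers b : Subgroup G) : Set G) ⧸
    (Subgroup.zpowers b).subgroupOf (Subgroup.centralizer ((Subgroup.zpowers b : Subgroup G) : Set G))

/-- The image of `z`. -/
def zbar : NQ b := QuotientGroup.mk ⟨z, mem_cent.2 S.hzb.symm⟩

theorem zbar_def : S.zbar = QuotientGroup.mk ⟨z, mem_cent.2 S.hzb.symm⟩ := rfl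

theorem bar_comm_iff (a : Subgroup.centralizer ((Subgroup.zpowers b : Subgroup G) : Set G)) :
    (QuotientGroup.mk a : NQ b) ∈ Subgroup.centralizer ({S.zbar} : Set (NQ b)) ↔
      (a : G) * z = z * a := by
  rw [Subgroup.mem_centralizer_singleton_iff, zbar_def, ← QuotientGroup.mk_mul,
    ← QuotientGroup.mk_mul, QuotientGroup.eq, Subgroup.mem_subgroupOf]
  constructor
  · intro h
    set β := ((a * ⟨z, mem_cent.2 S.hzb.symm⟩)⁻¹ * (⟨z, mem_cent.2 S.hzb.symm⟩ * a) :
      Subgroup.centralizer ((Subgroup.zpowers b : Subgroup G) : Set G)).1 with hβ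
    have hβ' : β = ((a : G) * z)⁻¹ * (z * a) := rfl
    have hzb : β * z = z * β := by
      obtain ⟨j, hj⟩ := Subgroup.mem_zpowers_iff.1 h
      rw [← hj]
      exact ((show Commute z b from S.hzb.symm).zpow_right j).eq.symm
    have hcb : β * b = b * β := by
      obtain ⟨j, hj⟩ := Subgroup.mem_zpowers_iff.1 h
      rw [← hj]
      exact (Commute.refl b).zpow_left j |>.eq
    have e1 : z * β = (a : G)⁻¹ * z * a := by
      rw [hβ', mul_inv_rev, inv_eq_of_mul_eq_one_right D.z_sq]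
      calc z * (z * (a : G)⁻¹ * (z * a)) = (z * z) * ((a : G)⁻¹ * z * a) := by group
        _ = (a : G)⁻¹ * z * a := by rw [D.z_sq, one_mul]
    have e2 : β ^ 2 = 1 := by
      have : (z * β) * (z * β) = 1 := by
        rw [e1]
        calc (a : G)⁻¹ * z * a * ((a : G)⁻¹ * z * a) = (a : G)⁻¹ * (z * z) * a := by group
          _ = 1 := by rw [D.z_sq]; group
      calc β ^ 2 = z * (z * β) * β := by rw [← mul_assoc z z, D.z_sq, one_mul, pow_two]
        _ = z * (β * z) * β := by rw [hzb]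
        _ = (z * β) * (z * β) := by group
        _ = 1 := this
    have := S.pow_two_eq e2 h
    rw [hβ', inv_mul_eq_one] at this
    exact this
  · intro h
    show ((a : G) * z)⁻¹ * (z * a) ∈ Subgroup.zpowers b
    rw [h, inv_mul_cancel]
    exact Subgroup.one_mem _

/-- The projection onto the centralizer of the image of `z`. -/
def proj : cen b z →* Subgroup.centralizer ({S.zbar} : Set (NQ b)) where
  toFun a := ⟨QuotientGroup.mk ⟨(a : G),
      mem_cent.2 (Subgroup.mem_centralizer_singleton_iff.1 a.2.2)⟩,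
    (S.bar_comm_iff _).2 (Subgroup.mem_centralizer_singleton_iff.1 a.2.1)⟩
  map_one' := rfl
  map_mul' _ _ := rfl

theorem proj_surjective : Function.Surjective S.proj := by
  rintro ⟨x, hx⟩
  obtain ⟨a, rfl⟩ := QuotientGroup.mk_surjective x
  exact ⟨⟨(a : G), Subgroup.mem_centralizer_singleton_iff.2 ((S.bar_comm_iff a).1 hx),
    Subgroup.mem_centralizer_singleton_iff.2 (mem_cent.1 a.2)⟩, rfl⟩

theorem proj_eq_iff {a c : cen b z} :
    S.proj a = S.proj c ↔ (a : G)⁻¹ * c ∈ Subgroup.zpowers b := by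
  rw [Subtype.ext_iff]
  show (QuotientGroup.mk _ : NQ b) = QuotientGroup.mk _ ↔ _
  rw [QuotientGroup.eq, Subgroup.mem_subgroupOf]
  rfl

theorem mem_ker_proj {a : cen b z} : a ∈ S.proj.ker ↔ (a : G) ∈ Subgroup.zpowers b := by
  rw [MonoidHom.mem_ker, ← map_one S.proj, eq_comm, S.proj_eq_iff, Subgroup.coe_one, inv_one, one_mul]

/-- The projection on the fixed part is injective. -/
theorem proj_inj {r u : S.qFix} (h : S.proj (r : cen b z) = S.proj (u : cen b z)) : r = u := by
  rw [S.proj_eq_iff] at h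
  set d : S.qFix := r⁻¹ * u with hd
  have hdG : ((d : cen b z) : G) ∈ Subgroup.zpowers b := h
  have h2 : ((d : cen b z) : G) * ((d : cen b z) : G) = 1 ∨
      ((d : cen b z) : G) * ((d : cen b z) : G) = z := by
    have h1 : S.cd (d * d) = 0 := by
      rw [S.cd_mul]; funext i; exact CharTwo.add_self_eq_zero _
    rcases S.cd_eq_zero.1 h1 with e | e
    · exact Or.inl (congrArg (fun r : S.qFix => ((r : cen b z) : G)) e)
    · exact Or.inr (congrArg (fun r : S.qFix => ((r : cen b z) : G)) e)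
  have h1 : ((d : cen b z) : G) = 1 := by
    rcases h2 with e | e
    · exact S.pow_two_eq (by rw [pow_two, e]) hdG
    · exfalso
      refine D.z_ne_one (S.pow_two_eq (by rw [pow_two, D.z_sq]) ?_)
      rw [← e]
      exact Subgroup.mul_mem _ hdG hdG
  exact inv_mul_eq_one.1 (Subtype.ext (Subtype.ext h1) : d = 1)

/-- The image of the fixed part. -/
def R : Subgroup (Subgroup.centralizer ({S.zbar} : Set (NQ b))) := S.qFix.map S.proj

/-- The fixed part and its image. -/
noncomputable def equivR : S.qFix ≃* S.R :=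
  MulEquiv.ofBijective
    ((S.proj.comp S.qFix.subtype).codRestrict S.R fun r => ⟨_, r.2, rfl⟩)
    ⟨fun _ _ h => S.proj_inj (congrArg Subtype.val h), fun ⟨_, a, ha, e⟩ => ⟨⟨a, ha⟩, Subtype.ext e⟩⟩

/-! ### The map onto `SL₃(2)` -/

theorem exists_k (a : cen b z) : ∃ k : Co0, k ∈ (Subgroup.centralizer ({permAut M.π M.hπ} : Set Co0)) ∧
    (QuotientGroup.mk k : Cfsg.Spor.Co1) =
      D.e (QuotientGroup.mk (⟨(a : G), a.2.1⟩ : Subgroup.centralizer ({z} : Set G))) := by
  obtain ⟨k, hk⟩ := QuotientGroup.mk_surjective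
    (D.e (QuotientGroup.mk (⟨(a : G), a.2.1⟩ : Subgroup.centralizer ({z} : Set G))))
  refine ⟨k, ?_, hk⟩
  have hcomm : (QuotientGroup.mk (k * M.σ) : Cfsg.Spor.Co1) = QuotientGroup.mk (M.σ * k) := by
    rw [QuotientGroup.mk_mul, QuotientGroup.mk_mul, hk, ← S.hb, ← map_mul, ← map_mul,
      ← QuotientGroup.mk_mul, ← QuotientGroup.mk_mul]
    exact congrArg (fun c => D.e (QuotientGroup.mk c)) (Subtype.ext
      (Subgroup.mem_centralizer_singleton_iff.1 a.2.2))
  rw [QuotientGroup.eq, mem_center_iff] at hcomm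
  rw [Subgroup.mem_centralizer_singleton_iff]
  rcases hcomm with e | e
  · exact inv_mul_eq_one.1 e
  · exfalso
    exact M.not_negated (k := k) (inv_mul_eq_iff_eq_mul.1 e)

/-- The lattice automorphism of an element. -/
noncomputable def kOf (a : cen b z) : (Subgroup.centralizer ({permAut M.π M.hπ} : Set Co0)) := ⟨(S.exists_k a).choose, (S.exists_k a).choose_spec.1⟩

theorem kOf_spec (a : cen b z) : (QuotientGroup.mk (S.kOf a : Co0) : Cfsg.Spor.Co1) =
    D.e (QuotientGroup.mk (⟨(a : G), a.2.1⟩ : Subgroup.centralizer ({z} : Set G))) :=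
  (S.exists_k a).choose_spec.2

/-- The map onto `SL₃(2)`. -/
noncomputable def toSL : cen b z →* T :=
  MonoidHom.mk' (fun a => M.φ (S.kOf a)) fun a c => by
    rw [← map_mul]
    refine M.φ_eq_of_mk (k := S.kOf (a * c)) (l := S.kOf a * S.kOf c) ?_
    rw [S.kOf_spec]
    show _ = (QuotientGroup.mk ((S.kOf a : Co0) * (S.kOf c : Co0)) : Cfsg.Spor.Co1)
    rw [QuotientGroup.mk_mul, S.kOf_spec, S.kOf_spec, ← map_mul]
    rfl

theorem toSL_eq {a : cen b z} {k : (Subgroup.centralizer ({permAut M.π M.hπ} : Set Co0))} (h : (QuotientGroup.mk (k : Co0) : Cfsg.Spor.Co1) =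
    D.e (QuotientGroup.mk (⟨(a : G), a.2.1⟩ : Subgroup.centralizer ({z} : Set G)))) :
    S.toSL a = M.φ k :=
  M.φ_eq_of_mk (by rw [S.kOf_spec, h])

theorem toSL_surjective : Function.Surjective S.toSL := by
  intro m
  obtain ⟨k, rfl⟩ := M.φ_surj m
  obtain ⟨c, hc⟩ := QuotientGroup.mk_surjective (D.e.symm (QuotientGroup.mk (k : Co0)))
  have hck : D.e (QuotientGroup.mk c) = (QuotientGroup.mk (k : Co0) : Cfsg.Spor.Co1) := by
    rw [hc, MulEquiv.apply_symm_apply]
  have hconj : (QuotientGroup.mk (c * S.bC * c⁻¹) :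
      Subgroup.centralizer ({z} : Set G) ⧸ Q) = QuotientGroup.mk S.bC := by
    apply D.e.injective
    rw [QuotientGroup.mk_mul, QuotientGroup.mk_mul, QuotientGroup.mk_inv, map_mul, map_mul, map_inv,
      hck, S.hb, ← QuotientGroup.mk_inv, ← QuotientGroup.mk_mul, ← QuotientGroup.mk_mul,
      show (k : Co0) * M.σ = M.σ * k from Subgroup.mem_centralizer_singleton_iff.1 k.2, mul_inv_cancel_right]
  obtain ⟨u, hu, e⟩ := Prime.conj_lift (hp := ⟨M.prime⟩) Q M.odd D.hset.2.2.2.1 S.orderC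
    (y := c * S.bC * c⁻¹) (by
      show orderOf (MulAut.conj c S.bC) = M.p
      rw [MulEquiv.orderOf_eq, S.orderC]) hconj
  set a := u * c with ha
  have hab : (a : G) * b = b * a := by
    have e' : a * S.bC * a⁻¹ = S.bC := by
      conv_rhs => rw [← e]
      rw [ha]; group
    exact congrArg Subtype.val (mul_inv_eq_iff_eq_mul.1 e')
  refine ⟨⟨a, a.2, Subgroup.mem_centralizer_singleton_iff.2 hab⟩, S.toSL_eq ?_⟩
  show _ = D.e (QuotientGroup.mk a)
  rw [ha, QuotientGroup.mk_mul, (QuotientGroup.eq_one_iff u).2 hu, one_mul, hck]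

theorem toSL_eq_one_iff (a : cen b z) :
    S.toSL a = 1 ↔ ∃ m : ℕ, (b ^ m)⁻¹ * (a : G) ∈ D.F := by
  have hbm : ∀ m : ℕ, (QuotientGroup.mk (M.σ ^ m) : Cfsg.Spor.Co1) =
      D.e (QuotientGroup.mk (S.bC ^ m)) := fun m => by
    rw [QuotientGroup.mk_pow, QuotientGroup.mk_pow, map_pow, S.hb]
  constructor
  · intro h
    obtain ⟨m, hm⟩ := (M.φ_ker (S.kOf a)).1 h
    refine ⟨m, ?_⟩
    have e : (QuotientGroup.mk (S.kOf a : Co0) : Cfsg.Spor.Co1) = QuotientGroup.mk (M.σ ^ m) := by
      rcases hm with e | e <;> rw [e]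
      · rfl
      · rw [QuotientGroup.mk_mul, (QuotientGroup.eq_one_iff _).2 negOne_mem_center, one_mul]
        rfl
    rw [S.kOf_spec, hbm] at e
    exact ⟨_, QuotientGroup.eq.1 (D.e.injective e).symm, rfl⟩
  · rintro ⟨m, q, hq, e⟩
    rw [S.toSL_eq (k := ⟨M.σ ^ m, pow_mem (Subgroup.mem_centralizer_singleton_iff.2 rfl) m⟩) ?_]
    · exact (M.φ_ker _).2 ⟨m, Or.inl rfl⟩
    · rw [hbm]
      congr 1
      rw [QuotientGroup.eq]
      have : (S.bC ^ m)⁻¹ * (⟨(a : G), a.2.1⟩ : Subgroup.centralizer ({z} : Set G)) = q :=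
        Subtype.ext e.symm
      rw [this]; exact hq

theorem ker_proj_le : S.proj.ker ≤ S.toSL.ker := by
  intro a ha
  rw [S.mem_ker_proj] at ha
  obtain ⟨j, hj⟩ := (isOfFinOrder_of_finite b).mem_powers_iff_mem_zpowers.2 ha
  rw [MonoidHom.mem_ker, S.toSL_eq_one_iff]
  exact ⟨j, by rw [show b ^ j = (a : G) from hj, inv_mul_cancel]; exact D.F.one_mem⟩

/-- The map on the centralizer of the image of `z`. -/
noncomputable def gamma :
    Subgroup.centralizer ({S.zbar} : Set (NQ b)) →* T :=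
  MonoidHom.liftOfSurjective S.proj S.proj_surjective ⟨S.toSL, S.ker_proj_le⟩

theorem gamma_proj (a : cen b z) : S.gamma (S.proj a) = S.toSL a :=
  MonoidHom.liftOfRightInverse_comp_apply _ _ _ _ a

theorem gamma_surjective : Function.Surjective S.gamma := fun m => by
  obtain ⟨a, rfl⟩ := S.toSL_surjective m
  exact ⟨S.proj a, S.gamma_proj a⟩

theorem gamma_ker : S.R = S.gamma.ker := by
  ext x
  obtain ⟨a, rfl⟩ := S.proj_surjective x
  rw [MonoidHom.mem_ker, S.gamma_proj, S.toSL_eq_one_iff]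
  constructor
  · rintro ⟨r, hr, e⟩
    rw [S.proj_eq_iff] at e
    obtain ⟨j, hj⟩ := (isOfFinOrder_of_finite b).mem_powers_iff_mem_zpowers.2 e
    refine ⟨j, ?_⟩
    have hj' : b ^ j = (r : G)⁻¹ * a := hj
    have hrb : Commute (r : G) (b ^ j) :=
      (show Commute (r : G) b from Subgroup.mem_centralizer_singleton_iff.1 r.2.2).pow_right j
    have ha : (a : G) = b ^ j * r := by rw [← hrb.eq, hj', mul_inv_cancel_left]
    rw [ha, inv_mul_cancel_left]
    exact hr
  · rintro ⟨m, hm⟩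
    have hbz : b ∈ cen b z :=
      ⟨Subgroup.mem_centralizer_singleton_iff.2 S.hzb, Subgroup.mem_centralizer_singleton_iff.2 rfl⟩
    refine ⟨(⟨b, hbz⟩ ^ m)⁻¹ * a, hm, ?_⟩
    rw [S.proj_eq_iff]
    have hcomm : Commute (a : G) (b ^ m) :=
      (show Commute (a : G) b from Subgroup.mem_centralizer_singleton_iff.1 a.2.2).pow_right m
    show ((b ^ m)⁻¹ * (a : G))⁻¹ * a ∈ _
    rw [mul_inv_rev, inv_inv, mul_assoc, ← hcomm.eq, inv_mul_cancel_left]
    exact Subgroup.npow_mem_zpowers b m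

theorem R_normal : S.R.Normal := S.gamma_ker ▸ inferInstance

theorem centralizer_R_le : Subgroup.centralizer (S.R : Set _) ≤ S.R := by
  intro x hx
  obtain ⟨a, rfl⟩ := S.proj_surjective x
  rw [S.gamma_ker, MonoidHom.mem_ker, S.gamma_proj]
  refine M.faithful _ fun c => ?_
  set r := S.sec c with hr
  set r' : S.qFix := ⟨a * (r : cen b z) * a⁻¹, by
    show (a : G) * ((r : cen b z) : G) * (a : G)⁻¹ ∈ D.F
    rw [← S.gv_qOf r]
    exact ⟨⟨(a : G), a.2.1⟩ * S.qOf r * (⟨(a : G), a.2.1⟩ : Subgroup.centralizer ({z} : Set G))⁻¹,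
      (inferInstance : Q.Normal).conj_mem _ (S.qOf r).2 _, rfl⟩⟩
  have hrr : r' = r := by
    refine S.proj_inj ?_
    have h := hx _ ⟨(r : cen b z), r.2, rfl⟩
    show S.proj (a * (r : cen b z) * a⁻¹) = _
    rw [map_mul, map_mul, map_inv, mul_inv_eq_iff_eq_mul]
    exact h.symm
  have hq : (QuotientGroup.mk (S.qOf r) : Q ⧸ Subgroup.center Q) = D.mod.cls (M.rep c) := by
    rw [hr, sec, S.qOf_mkFix, D.mod.mk_rep]
  have hcls := D.cls_conj _ _ (S.kOf_spec a) (M.fixV_rep c).1 (S.qOf r) hq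
  have hq' : (QuotientGroup.mk (S.qOf r') : Q ⧸ Subgroup.center Q) =
      D.mod.cls (act (S.kOf a : Co0) (M.rep c)) := by
    rw [hcls]
    congr 1
    apply gv_injective
    rw [S.gv_qOf]
    show (a : G) * ((r : cen b z) : G) * (a : G)⁻¹ = (a : G) * gv (S.qOf r) * (a : G)⁻¹
    rw [S.gv_qOf]
  rw [hrr, hq] at hq'
  obtain ⟨t, ht, e⟩ := (D.cls_eq_iff (M.fixV_rep c).1 (isLeech_act _ (M.fixV_rep c).1)).1 hq'
  rw [← M.code_congr (isLeech_act _ (M.fixV_rep c).1) ht e, M.code_rep]

theorem pCore_eq_R : Cfsg.pCore 2 (Subgroup.centralizer ({S.zbar} : Set (NQ b))) = S.R := by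
  haveI : Fact (Nat.Prime 2) := ⟨Nat.prime_two⟩
  set P := Cfsg.pCore 2 (Subgroup.centralizer ({S.zbar} : Set (NQ b))) with hP
  refine le_antisymm ?_ (H19.le_pCore S.R_normal
    ((IsPGroup.of_card S.card_qFix).map _))
  rw [S.gamma_ker, ← Subgroup.map_eq_bot_iff]
  haveI : P.Normal := H19.pCore_normal 2 _
  exact M.no_two _ (Subgroup.Normal.map inferInstance _ S.gamma_surjective)
    ((H19.pCore_isPGroup 2).map _)

theorem setting (w : ℕ) (hw : M.n = 2 * w)
    (hnorm : ∀ g : G, g * z * g⁻¹ = ((S.sec M.mark : cen b z) : G) →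
      g * ((S.sec M.mark : cen b z) : G) * g⁻¹ = z →
      ∃ l : G, l * z = z * l ∧
        l * ((S.sec M.mark : cen b z) : G) = ((S.sec M.mark : cen b z) : G) * l ∧
        l * g * b * (l * g)⁻¹ ∈ Subgroup.zpowers b) :
    Cfsg.IsExtraspecialCentralizerSetting S.zbar S.R w := by
  haveI : Fact (Nat.Prime 2) := ⟨Nat.prime_two⟩
  refine ⟨?_, ?_, extraspecial_of_equiv S.equivR S.qFix_extraspecial,
    (Nat.card_congr S.equivR.toEquiv).symm.trans (by rw [S.card_qFix, hw]), ?_⟩
  · refine orderOf_eq_prime ?_ ?_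
    · rw [pow_two, zbar_def, ← QuotientGroup.mk_mul, QuotientGroup.eq_one_iff, Subgroup.mem_subgroupOf]
      show z * z ∈ _
      rw [D.z_sq]; exact Subgroup.one_mem _
    · rw [zbar_def]
      intro e
      rw [QuotientGroup.eq_one_iff, Subgroup.mem_subgroupOf] at e
      exact D.z_ne_one (S.pow_two_eq (by rw [pow_two, D.z_sq]) e)
  · rw [(H73.charP_iff_generalizedFitting (p := 2)).1 (by
      rw [S.pCore_eq_R]; exact S.centralizer_R_le), S.pCore_eq_R]
  · obtain ⟨hc, hne⟩ := S.conj_mark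
    obtain ⟨c, hcb, hcz⟩ := S.conj_mul_z hc hne hnorm
    set r : S.qFix := S.zF * S.sec M.mark with hr
    have e : (QuotientGroup.mk ⟨c, mem_cent.2 hcb⟩ : NQ b) * S.zbar *
        (QuotientGroup.mk ⟨c, mem_cent.2 hcb⟩ : NQ b)⁻¹ =
        ((S.proj (r : cen b z) : Subgroup.centralizer ({S.zbar} : Set (NQ b))) : NQ b) := by
      show (QuotientGroup.mk _ : NQ b) = QuotientGroup.mk _
      congr 1
      exact Subtype.ext hcz
    refine ⟨QuotientGroup.mk ⟨c, mem_cent.2 hcb⟩, ?_, ?_⟩
    · rw [e]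
      exact ⟨(S.proj (r : cen b z)).2, ⟨_, r.2, rfl⟩⟩
    · rw [e]
      intro e'
      have h1 : r = S.zF := S.proj_inj (Subtype.ext e')
      have h2 : S.sec M.mark = 1 := by simpa [hr] using h1
      obtain ⟨g, hg⟩ := isConj_iff.1 hc
      rw [h2] at hg
      exact D.z_ne_one (conj_eq_one_iff.1 hg)

/-- The quotient of the centralizer of the image of `z` by the fixed part. -/
theorem nonempty_quotient : ∃ _ : S.R.Normal,
    Nonempty (Subgroup.centralizer ({S.zbar} : Set (NQ b)) ⧸ S.R ≃* T) := by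
  haveI := S.R_normal
  exact ⟨S.R_normal, ⟨(QuotientGroup.quotientMulEquivOfEq S.gamma_ker).trans
    (QuotientGroup.quotientKerEquivOfSurjective S.gamma S.gamma_surjective)⟩⟩

end PrimeElt

end Data

end Cfsg.Agent.H18.Monster
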