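import Cfsg.Agent.H18.Monster.Prime.ThreeTables

/-!
The code permutation of cycle type `3^8`: the centralizer of its lift to the automorphism group of
the Leech lattice acts on nine subspaces of the fixed sublattice modulo two as the alternating group
of degree 9.
-/

set_option autoImplicit false
set_option maxRecDepth 100000

namespace Cfsg.Agent.H18.Monster.Prime.Three

open Cfsg Cfsg.Agent.H14 Cfsg.Agent.H18.Monster.Prime.ThreeData

theorem sig_moves : frame.O.π (Held.pt 0) ≠ Held.pt 0 := by decide +kernel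

/-- A product of transpositions. -/
def swaps (l : List (Fin 9 × Fin 9)) : Equiv.Perm (Fin 9) :=
  (l.map fun a => Equiv.swap a.1 a.2).prod

theorem sign_swaps : ∀ l : List (Fin 9 × Fin 9), (∀ a ∈ l, a.1 ≠ a.2) →
    Equiv.Perm.sign (swaps l) = (-1) ^ l.length
  | [], _ => by simp [swaps]
  | a :: l, h => by
    rw [show swaps (a :: l) = Equiv.swap a.1 a.2 * swaps l from rfl, map_mul,
      Equiv.Perm.sign_swap (h a (List.mem_cons_self ..)),
      sign_swaps l fun b hb => h b (List.mem_cons_of_mem _ hb), List.length_cons, pow_succ']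

theorem gen_even : ∀ g : Fin 185, (∀ a ∈ genW.getD g.val [], a.1 ≠ a.2) ∧
    (genW.getD g.val []).length % 2 = 0 := by decide +kernel

theorem gen_val : ∀ g : Fin 185, ∀ i : Fin 9,
    (swaps (genW.getD g.val []) i).val = (permG.getD g.val []).getD i.val 0 := by decide +kernel

theorem hgen (g : Fin (1 + frame.NT + frame.NW)) :
    ∃ π ∈ alternatingGroup (Fin 9), ∀ i : Fin frame.N,
      ((Equiv.refl (Fin 9)).symm (π (Equiv.refl (Fin 9) i))).val =
        (frame.permG.getD g.val []).getD i.val 0 := by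
  refine ⟨swaps (genW.getD g.val []), Equiv.Perm.mem_alternatingGroup.2 ?_, gen_val g⟩
  obtain ⟨h1, h2⟩ := gen_even g
  obtain ⟨k, hk⟩ := Nat.dvd_of_mod_eq_zero h2
  rw [sign_swaps _ h1, hk, pow_mul, neg_one_sq, one_pow]

/-- The transposition of the first two subspaces. -/
def s₀ : Equiv.Perm (Fin 9) := Equiv.swap 0 1

theorem pair_data : pairs.length = 36 ∧
    (∀ a b : Fin 9, a < b → ∃ r : Fin 36, pairs.getD r.val (0, 0) = (a, b)) ∧
    ∀ r : Fin 36, (pairD.getD r.val []).getD 0 0 < classes.length ∧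
      (pairD.getD r.val []).getD 1 0 < 16 ∧ (pairD.getD r.val []).getD 2 0 < 168 ∧
      ∀ i : Fin 9, (permC.getD ((pairD.getD r.val []).getD 0 0) []).getD
        ((permG.getD (1 + 168 + (pairD.getD r.val []).getD 1 0) []).getD
          ((permG.getD (1 + (pairD.getD r.val []).getD 2 0) []).getD i.val 0) 0) 0 =
        (Equiv.swap (pairs.getD r.val (0, 0)).1 (pairs.getD r.val (0, 0)).2 (s₀ i)).val := by
  decide +kernel

theorem permX_eq {k : frame.K} {π : Equiv.Perm (Fin 9)}
    (h : ∀ i, (frame.perm k i).val = (π i).val) : frame.permX (Equiv.refl (Fin 9)) k = π :=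
  Equiv.ext fun i => Fin.ext (h i)

theorem lt_mem_range {a b : Fin 9} (h : a < b) :
    Equiv.swap a b * s₀ ∈ (frame.permX (Equiv.refl (Fin 9))).range := by
  obtain ⟨r, hr⟩ := pair_data.2.1 a b h
  obtain ⟨h0, h1, h2, h3⟩ := pair_data.2.2 r
  obtain ⟨k, hk⟩ := frame.exists_perm_eq ⟨_, h0⟩ ⟨_, h1⟩ ⟨_, h2⟩
  refine ⟨k, permX_eq fun i => (hk i).trans ((h3 i).trans ?_)⟩
  rw [hr]
  rfl

theorem ne_mem_range {a b : Fin 9} (h : a ≠ b) :
    Equiv.swap a b * s₀ ∈ (frame.permX (Equiv.refl (Fin 9))).range := by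
  rcases lt_or_gt_of_ne h with h | h
  · exact lt_mem_range h
  · rw [Equiv.swap_comm]; exact lt_mem_range h

theorem cases_range (σ : Equiv.Perm (Fin 9)) :
    σ ∈ (frame.permX (Equiv.refl (Fin 9))).range ∨
      σ * s₀ ∈ (frame.permX (Equiv.refl (Fin 9))).range := by
  set K := (frame.permX (Equiv.refl (Fin 9))).range
  have hs : s₀⁻¹ = s₀ := Equiv.swap_inv _ _
  induction σ using Equiv.Perm.swap_induction_on' with
  | one => exact Or.inl (one_mem _)
  | mul_swap τ x y hxy ih =>
    rcases ih with ih | ih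
    · right
      rw [mul_assoc]
      exact mul_mem ih (ne_mem_range hxy)
    · left
      have h1 : s₀ * Equiv.swap x y ∈ K := by
        have := inv_mem (ne_mem_range hxy)
        rwa [mul_inv_rev, Equiv.swap_inv, hs] at this
      have h2 := mul_mem ih h1
      rwa [← mul_assoc, mul_assoc τ s₀ s₀, show s₀ * s₀ = 1 from Equiv.swap_mul_self _ _, mul_one]
        at h2

theorem hsurj : alternatingGroup (Fin 9) ≤ (frame.permX (Equiv.refl (Fin 9))).range := by
  intro σ hσ
  rcases cases_range σ with h | h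
  · exact h
  exfalso
  obtain ⟨k, hk⟩ := h
  have h1 : frame.permX (Equiv.refl (Fin 9)) k ∈ alternatingGroup (Fin 9) :=
    frame.permX_mem _ _ hgen k
  rw [hk, Equiv.Perm.mem_alternatingGroup, map_mul, Equiv.Perm.mem_alternatingGroup.1 hσ, one_mul,
    show Equiv.Perm.sign s₀ = -1 from Equiv.Perm.sign_swap (by decide)] at h1
  exact absurd h1 (by decide)

theorem no_two (N : Subgroup (alternatingGroup (Fin 9))) (hN : N.Normal) (h2 : IsPGroup 2 N) :
    N = ⊥ := by
  haveI : IsSimpleGroup (alternatingGroup (Fin 9)) := alternatingGroup.isSimpleGroup (by simp)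
  rcases hN.eq_bot_or_eq_top with h | h
  · exact h
  exfalso
  subst h
  haveI : Fact (Nat.Prime 2) := ⟨Nat.prime_two⟩
  obtain ⟨n, hn⟩ := IsPGroup.iff_card.1 h2
  have hc : Nat.card (alternatingGroup (Fin 9)) = 181440 := by
    rw [nat_card_alternatingGroup, Nat.card_fin]; rfl
  rw [Subgroup.card_top, hc] at hn
  have : (3 : ℕ) ∣ 2 ^ n := hn ▸ (by norm_num)
  have := (Nat.prime_dvd_prime_iff_eq (by norm_num) Nat.prime_two).1
    ((by norm_num : Nat.Prime 3).dvd_of_dvd_pow this)
  omega

/-- The lattice side. -/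
noncomputable def model : Model (alternatingGroup (Fin 9)) :=
  frame.model (Equiv.refl (Fin 9)) (alternatingGroup (Fin 9)) hgen hsurj no_two

end Cfsg.Agent.H18.Monster.Prime.Three
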