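import Cfsg.Agent.H18.Monster.Prime.ThreeData
import Cfsg.Agent.H18.Monster.Prime.Frame
import Cfsg.Agent.H18.Monster.HeldSylow
import Cfsg.Agent.H14.CrossBlock

/-!
The elements of order three of the monomial group modulo its centre that are not central in any
Sylow 3-subgroup: they form one class of subgroups of order three, that of the permutation of cycle
type `3^8`.
-/

set_option autoImplicit false
set_option maxRecDepth 100000

namespace Cfsg.Agent.H18.Monster.Prime.ThreeClass

open Cfsg Cfsg.Agent.H14 Cfsg.Agent.H18.Monster.Prime.ThreeData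
open Cfsg.Agent.H18.Monster.Held (pt pf idx_pt pt_idx mem_M24_of_preserves)

/-! ### Centralized subgroups of order 27 -/

/-- Some subgroup of order 27 centralizes the element. -/
def Central {Γ : Type*} [Group Γ] (y : Γ) : Prop :=
  ∃ P : Subgroup Γ, Nat.card P = 27 ∧ ∀ p ∈ P, p * y = y * p

section Group

variable {Γ : Type*} [Group Γ]

theorem Central.conj {y : Γ} (h : Central y) (g : Γ) : Central (g * y * g⁻¹) := by
  obtain ⟨P, hP, hc⟩ := h
  refine ⟨P.map (MulAut.conj g).toMonoidHom, ?_, ?_⟩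
  · rw [← hP]
    exact (Nat.card_congr (P.equivMapOfInjective _ (MulAut.conj g).injective).toEquiv).symm
  · rintro - ⟨p, hp, rfl⟩
    show g * p * g⁻¹ * (g * y * g⁻¹) = g * y * g⁻¹ * (g * p * g⁻¹)
    calc g * p * g⁻¹ * (g * y * g⁻¹) = g * (p * y) * g⁻¹ := by group
      _ = g * (y * p) * g⁻¹ := by rw [hc p hp]
      _ = _ := by group

theorem Central.of_mem {y y' : Γ} (h : Central y) (hy : y' ∈ Subgroup.zpowers y) : Central y' := by
  obtain ⟨P, hP, hc⟩ := h
  obtain ⟨i, rfl⟩ := Subgroup.mem_zpowers_iff.1 hy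
  exact ⟨P, hP, fun p hp => ((show Commute p y from hc p hp).zpow_right i).eq⟩

theorem factorization_three [Finite Γ] (h81 : ¬ 81 ∣ Nat.card Γ) (h27 : 27 ∣ Nat.card Γ) :
    (Nat.card Γ).factorization 3 = 3 := by
  have hp : Nat.Prime 3 := by norm_num
  have hn : Nat.card Γ ≠ 0 := Nat.card_pos.ne'
  have a := (hp.pow_dvd_iff_le_factorization (k := 3) hn).1 h27
  have b : ¬ 4 ≤ (Nat.card Γ).factorization 3 := fun h =>
    h81 ((hp.pow_dvd_iff_le_factorization (k := 4) hn).2 h)
  omega

/-- An element of order three centralizing a group of order 27 lies in it. -/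
theorem mem_of_comm [Finite Γ] (h81 : ¬ 81 ∣ Nat.card Γ) {P : Subgroup Γ} (hP : Nat.card P = 27)
    {y : Γ} (hy : orderOf y = 3) (hc : ∀ p ∈ P, p * y = y * p) : y ∈ P := by
  haveI : Fact (Nat.Prime 3) := ⟨by norm_num⟩
  set C := Subgroup.centralizer ({y} : Set Γ) with hC
  have hPC : P ≤ C := fun p hp => Subgroup.mem_centralizer_singleton_iff.2 (hc p hp)
  have hyC : y ∈ C := Subgroup.mem_centralizer_singleton_iff.2 rfl
  have hPC' : Nat.card (P.subgroupOf C) = 27 :=
    (Nat.card_congr (Subgroup.subgroupOfEquivOfLe hPC).toEquiv).trans hP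
  have hf : (Nat.card C).factorization 3 = 3 :=
    factorization_three (fun h => h81 (h.trans C.card_subgroup_dvd_card))
      (hPC' ▸ (P.subgroupOf C).card_subgroup_dvd_card)
  let S : Sylow 3 C := Sylow.ofCard (P.subgroupOf C) (by rw [hPC', hf]; norm_num)
  set Z : Subgroup C := Subgroup.zpowers ⟨y, hyC⟩ with hZ
  haveI : Z.Normal := by
    refine ⟨fun a ha g => ?_⟩
    obtain ⟨i, rfl⟩ := Subgroup.mem_zpowers_iff.1 ha
    refine Subgroup.mem_zpowers_iff.2 ⟨i, ?_⟩
    have hg : Commute g (⟨y, hyC⟩ : C) :=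
      Subtype.ext (Subgroup.mem_centralizer_singleton_iff.1 g.2)
    rw [(hg.zpow_right i).eq, mul_inv_cancel_right]
  have hZp : IsPGroup 3 Z := IsPGroup.of_card (n := 1) (by
    rw [hZ, Nat.card_zpowers, ← Subgroup.orderOf_coe, pow_one]; exact hy)
  have h2 : (S : Subgroup C) ⊔ Z = S :=
    S.3 (S.2.to_sup_of_normal_right hZp) le_sup_left
  have hmem : (⟨y, hyC⟩ : C) ∈ (S : Subgroup C) := by
    rw [← h2]
    exact Subgroup.mem_sup_right (Subgroup.mem_zpowers _)
  exact hmem

variable {Γ' : Type*} [Group Γ'] [Finite Γ] [Finite Γ'] {f : Γ →* Γ'} (hker : IsPGroup 2 f.ker)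
include hker

theorem map_injOn {P : Subgroup Γ} (hP : Nat.card P = 27) : Function.Injective (f.comp P.subtype) := by
  rw [← MonoidHom.ker_eq_bot_iff, eq_bot_iff]
  intro a ha
  rw [Subgroup.mem_bot]
  haveI : Fact (Nat.Prime 2) := ⟨Nat.prime_two⟩
  obtain ⟨k, hk⟩ := hker ⟨(a : Γ), ha⟩
  have h2 : a ^ 2 ^ k = 1 := Subtype.ext (congrArg Subtype.val hk :)
  have h27 : orderOf a ∣ 27 := hP ▸ orderOf_dvd_natCard a
  have hc : Nat.Coprime 27 (2 ^ k) := Nat.Coprime.pow_right k (by norm_num)
  exact orderOf_eq_one_iff.1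
    (Nat.Coprime.eq_one_of_dvd (Nat.Coprime.coprime_dvd_left h27 hc)
      (orderOf_dvd_of_pow_eq_one h2))

theorem Central.map {y : Γ} (h : Central y) : Central (f y) := by
  obtain ⟨P, hP, hc⟩ := h
  refine ⟨P.map f, ?_, ?_⟩
  · rw [← hP, ← show (f.comp P.subtype).range = P.map f by
      rw [MonoidHom.range_comp, Subgroup.range_subtype]]
    exact (Nat.card_congr (MonoidHom.ofInjective (map_injOn hker hP)).toEquiv).symm
  · rintro - ⟨p, hp, rfl⟩
    rw [← map_mul, hc p hp, map_mul]

theorem central_of_map (hf : Function.Surjective f) (h81 : ¬ 81 ∣ Nat.card Γ')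
    (h81' : ¬ 81 ∣ Nat.card Γ) {y : Γ} (hy : orderOf (f y) = 3) (hy' : orderOf y = 3)
    (h : Central (f y)) : Central y := by
  haveI : Fact (Nat.Prime 3) := ⟨by norm_num⟩
  obtain ⟨P, hP, hc⟩ := h
  have hfy : f y ∈ P := mem_of_comm h81 hP hy hc
  set H := P.comap f with hH
  have hy3 : y ∈ H := hfy
  have hcard : 27 ∣ Nat.card H :=
    hP ▸ Subgroup.card_dvd_of_surjective (f.subgroupComap P)
      (f.subgroupComap_surjective_of_surjective P hf)
  have hfH : (Nat.card H).factorization 3 = 3 :=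
    factorization_three (fun h => h81' (h.trans H.card_subgroup_dvd_card)) hcard
  have hyp : IsPGroup 3 (Subgroup.zpowers (⟨y, hy3⟩ : H)) := IsPGroup.of_card (n := 1) (by
    rw [Nat.card_zpowers, ← Subgroup.orderOf_coe, pow_one]; exact hy')
  obtain ⟨S, hS⟩ := hyp.exists_le_sylow
  set T := (S : Subgroup H).map H.subtype with hT
  have hTc : Nat.card T = 27 := by
    rw [hT, Nat.card_congr ((S : Subgroup H).equivMapOfInjective _ H.subtype_injective).toEquiv.symm,
      S.card_eq_multiplicity, hfH]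
    norm_num
  have hyT : y ∈ T := ⟨_, hS (Subgroup.mem_zpowers _), rfl⟩
  refine ⟨T, hTc, fun p hp => ?_⟩
  have hfp : f p ∈ P := by
    obtain ⟨a, -, rfl⟩ := hp
    exact a.2
  have h1 : (⟨p, hp⟩ : T) * ⟨y, hyT⟩ = ⟨y, hyT⟩ * ⟨p, hp⟩ := map_injOn hker hTc (by
    show f (p * y) = f (y * p)
    rw [map_mul, map_mul, hc _ hfp])
  exact congrArg Subtype.val h1

end Group

/-! ### The monomial group modulo its centre -/

/-- The image of the monomial group in the group modulo the centre. -/
abbrev X : Subgroup Cfsg.Spor.Co1 := crossStab.map (QuotientGroup.mk' (Subgroup.center Co0))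

theorem not_81_dvd : ¬ 81 ∣ Nat.card X := by
  intro h
  have := dvd_trans h (Subgroup.card_map_dvd (H := crossStab) (QuotientGroup.mk' (Subgroup.center Co0)))
  rw [Data.exists_crossStab_card] at this
  norm_num at this

theorem syl_ok : (∀ i : Fin 27, tauTest (List.range 24) (sylL.getD i.val []) (sylI.getD i.val []) = true) ∧
    (∀ i : Fin 27, tauTest (List.range 24) (sylC.getD i.val []) (sylCI.getD i.val []) = true) ∧
    ∀ i j : Fin 27, (sylMul.getD i.val []).getD j.val 0 < 27 := by decide +kernel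

theorem tab_spec {L I : List ℕ} (h : tauTest (List.range 24) L I = true) :
    Held.preserves I = true ∧ ∀ i < 24, L.getD i 0 < 24 ∧ I.getD i 0 < 24 ∧
      I.getD (L.getD i 0) 0 = i ∧ L.getD (I.getD i 0) 0 = i := by
  rw [tauTest, Bool.and_eq_true] at h
  refine ⟨h.1, fun i hi => ?_⟩
  have h2 := H15.allBelow_eq_true h.2 i hi
  simp only [Bool.and_eq_true, decide_eq_true_eq, beq_iff_eq] at h2
  exact ⟨h2.1.1.1.1, h2.1.1.1.2, h2.1.1.2, h2.1.2⟩

/-- A permutation given by a table and the inverse table. -/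
noncomputable def tabPerm (L I : List ℕ) (h : tauTest (List.range 24) L I = true) :
    Equiv.Perm GolayPt where
  toFun := pf L
  invFun := pf I
  left_inv q := by
    obtain ⟨h1, -, h3, -⟩ := (tab_spec h).2 _ (H15.idx_lt q)
    show pt _ = q
    rw [show H15.idx (pf L q) = _ from idx_pt h1, h3, pt_idx]
  right_inv q := by
    obtain ⟨-, h2, -, h4⟩ := (tab_spec h).2 _ (H15.idx_lt q)
    show pt _ = q
    rw [show H15.idx (pf I q) = _ from idx_pt h2, h4, pt_idx]

theorem tabPerm_mem (L I : List ℕ) (h : tauTest (List.range 24) L I = true) :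
    tabPerm L I h ∈ M24 :=
  mem_M24_of_preserves (fun q => idx_pt ((tab_spec h).2 _ (H15.idx_lt q)).2.1) (tab_spec h).1

theorem sig_inv : (∀ q, pf imgI (pf img q) = q) ∧ (∀ q, pf img (pf imgI q) = q) ∧
    (∀ q, H15.idx (pf imgI q) = imgI.getD (H15.idx q) 0) ∧ Held.preserves imgI = true ∧
    (∀ q, pf img q ≠ q) := by decide +kernel

/-- The permutation of cycle type `3^8`. -/
noncomputable def π3 : Equiv.Perm GolayPt := ⟨pf img, pf imgI, sig_inv.1, sig_inv.2.1⟩

theorem π3_mem : π3 ∈ M24 := mem_M24_of_preserves sig_inv.2.2.1 sig_inv.2.2.2.1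

/-- An element of the Sylow subgroup. -/
noncomputable def syl (i : Fin 27) : Equiv.Perm GolayPt := tabPerm _ _ (syl_ok.1 i)

/-- A conjugating permutation. -/
noncomputable def cj (i : Fin 27) : Equiv.Perm GolayPt := tabPerm _ _ (syl_ok.2.1 i)

theorem syl_mem (i : Fin 27) : syl i ∈ M24 := tabPerm_mem _ _ _

theorem cj_mem (i : Fin 27) : cj i ∈ M24 := tabPerm_mem _ _ _

theorem syl_tables : (∀ q, syl 0 q = q) ∧
    (∀ i j : Fin 27, ∀ q, syl i (syl j q) = syl ⟨_, syl_ok.2.2 i j⟩ q) ∧
    (∀ i j : Fin 27, (∀ q, syl i q = syl j q) → i = j) ∧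
    (∀ i : Fin 27, sylK.getD i.val false = true → ∀ q, cj i (π3 q) = syl i (cj i q)) ∧
    (∀ i : Fin 27, sylK.getD i.val false = false → ∀ j q,
      syl i (cj i (syl j ((cj i).symm q))) = cj i (syl j ((cj i).symm (syl i q)))) ∧
    ∀ i : Fin 27, (∀ j q, syl i (syl j q) = syl j (syl i q)) → i = 0 ∨ ∃ q, syl i q = q := by
  decide +kernel

/-- The class of a code permutation. -/
noncomputable def bar (σ : Equiv.Perm GolayPt) (h : σ ∈ M24) : X :=
  ⟨QuotientGroup.mk (permAut σ h), _, permAut_mem_crossStab σ h, rfl⟩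

theorem bar_mul {σ τ : Equiv.Perm GolayPt} (hσ : σ ∈ M24) (hτ : τ ∈ M24) :
    bar σ hσ * bar τ hτ = bar (σ * τ) (mul_mem hσ hτ) := by
  apply Subtype.ext
  show QuotientGroup.mk (permAut σ hσ) * QuotientGroup.mk (permAut τ hτ) = _
  rw [← QuotientGroup.mk_mul]
  congr 1

theorem bar_congr {σ τ : Equiv.Perm GolayPt} {hσ : σ ∈ M24} {hτ : τ ∈ M24} (e : σ = τ) :
    bar σ hσ = bar τ hτ := by subst e; rfl

theorem bar_one : bar 1 (one_mem _) = 1 := by
  have h := bar_mul (one_mem M24) (one_mem M24)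
  rw [bar_congr (hτ := one_mem _) (one_mul (1 : Equiv.Perm GolayPt))] at h
  exact mul_eq_left.1 h

theorem bar_inj {σ τ : Equiv.Perm GolayPt} {hσ : σ ∈ M24} {hτ : τ ∈ M24}
    (e : bar σ hσ = bar τ hτ) : σ = τ := by
  have h := congrArg Subtype.val e
  change (QuotientGroup.mk _ : Cfsg.Spor.Co1) = QuotientGroup.mk _ at h
  rw [QuotientGroup.eq, mem_center_iff, inv_mul_eq_one, inv_mul_eq_iff_eq_mul] at h
  refine Equiv.ext fun q => ?_
  rcases h with h | h
  · have := congrArg (fun k => act k (eight q)) h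
    simp only [act_permAut _ (isLeech_eight _), permFun_eight] at this
    exact eight_injective this
  · have := congrArg (fun k => act k (eight q)) h
    simp only [mul_act, act_negOne (isLeech_eight _), act_neg _ (isLeech_eight _),
      act_permAut _ (isLeech_eight _), permFun_eight] at this
    exact absurd this (eight_ne_neg _ _)

/-- The Sylow subgroup. -/
noncomputable def P₀ : Subgroup X :=
  Subgroup.closure (Set.range fun i => bar (syl i) (syl_mem _))

theorem mem_P₀ {x : X} : x ∈ P₀ ↔ ∃ i, bar (syl i) (syl_mem _) = x := by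
  refine ⟨fun h => ?_, fun ⟨i, e⟩ => Subgroup.subset_closure ⟨i, e⟩⟩
  have h1 : bar (syl 0) (syl_mem _) = 1 :=
    (bar_congr (hτ := one_mem _) (Equiv.ext syl_tables.1)).trans bar_one
  induction h using Subgroup.closure_induction'' with
  | mem x hx => exact hx
  | inv_mem x hx =>
    obtain ⟨i, rfl⟩ := hx
    -- inverses are positive powers
    have hp : ∀ n : ℕ, ∃ j, bar (syl j) (syl_mem _) = bar (syl i) (syl_mem _) ^ n := by
      intro n
      induction n with
      | zero => exact ⟨0, by rw [pow_zero, h1]⟩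
      | succ n ih =>
        obtain ⟨j, hj⟩ := ih
        refine ⟨⟨_, syl_ok.2.2 j i⟩, ?_⟩
        rw [pow_succ, ← hj, bar_mul]
        exact bar_congr (Equiv.ext fun q => (syl_tables.2.1 j i q).symm)
    obtain ⟨j, hj⟩ := hp (orderOf (bar (syl i) (syl_mem _)) - 1)
    refine ⟨j, hj.trans ?_⟩
    rw [eq_inv_iff_mul_eq_one, ← pow_succ, Nat.sub_add_cancel (orderOf_pos _), pow_orderOf_eq_one]
  | one => exact ⟨0, h1⟩
  | mul x y _ _ hx hy =>
    obtain ⟨i, rfl⟩ := hx
    obtain ⟨j, rfl⟩ := hy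
    refine ⟨⟨_, syl_ok.2.2 i j⟩, ?_⟩
    rw [bar_mul]
    exact bar_congr (Equiv.ext fun q => (syl_tables.2.1 i j q).symm)

theorem card_P₀ : Nat.card P₀ = 27 := by
  let f : Fin 27 → P₀ := fun i => ⟨bar (syl i) (syl_mem _), mem_P₀.2 ⟨i, rfl⟩⟩
  have hf : Function.Bijective f :=
    ⟨fun i j e => syl_tables.2.2.1 i j fun q => by rw [bar_inj (congrArg Subtype.val e)],
      fun x => by
        obtain ⟨i, e⟩ := mem_P₀.1 x.2
        exact ⟨i, Subtype.ext e⟩⟩
  rw [← Nat.card_eq_of_bijective f hf, Nat.card_fin]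

theorem card_X : (Nat.card X).factorization 3 = 3 :=
  factorization_three not_81_dvd (card_P₀ ▸ P₀.card_subgroup_dvd_card)

/-- The Sylow subgroup as such. -/
noncomputable def S₀ : Sylow 3 X := Sylow.ofCard P₀ (by rw [card_P₀, card_X]; norm_num)

theorem conj_into (P : Sylow 3 X) : ∃ g : X, ∀ p ∈ P, g * p * g⁻¹ ∈ P₀ := by
  haveI : Fact (Nat.Prime 3) := ⟨by norm_num⟩
  obtain ⟨g, hg⟩ := MulAction.exists_smul_eq X P S₀
  refine ⟨g, fun p hp => ?_⟩
  have h : g * p * g⁻¹ ∈ ((g • P : Sylow 3 X) : Subgroup X) := ⟨p, hp, rfl⟩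
  rw [hg] at h
  exact h

/-- The class of the permutation. -/
noncomputable def s3 : X := bar π3 π3_mem

/-- The elements of order three centralized by no subgroup of order 27 generate conjugates of the
group of the permutation. -/
theorem conj_of_not_central {y : X} (hy : orderOf y = 3) (h : ¬ Central y) :
    ∃ u : X, u * s3 * u⁻¹ = y := by
  haveI : Fact (Nat.Prime 3) := ⟨by norm_num⟩
  have hyp : IsPGroup 3 (Subgroup.zpowers y) :=
    IsPGroup.of_card (n := 1) (by rw [Nat.card_zpowers, hy, pow_one])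
  obtain ⟨P, hP⟩ := hyp.exists_le_sylow
  obtain ⟨g, hg⟩ := conj_into P
  obtain ⟨i, hi⟩ := mem_P₀.1 (hg y (hP (Subgroup.mem_zpowers y)))
  cases hk : sylK.getD i.val false with
  | true =>
    refine ⟨g⁻¹ * bar (cj i) (cj_mem _), ?_⟩
    have e : bar (cj i) (cj_mem _) * s3 =
        bar (syl i) (syl_mem _) * bar (cj i) (cj_mem _) := by
      rw [s3, bar_mul, bar_mul]
      exact bar_congr (Equiv.ext fun q => syl_tables.2.2.2.1 i hk q)
    rw [mul_assoc g⁻¹, e, hi]
    group
  | false =>
    exfalso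
    refine h ?_
    have hc : Central (bar (syl i) (syl_mem _)) := by
      set c := bar (cj i) (cj_mem _) with hc
      refine ⟨P₀.map (MulAut.conj c).toMonoidHom, ?_, ?_⟩
      · rw [← card_P₀]
        exact (Nat.card_congr (P₀.equivMapOfInjective _ (MulAut.conj c).injective).toEquiv).symm
      · rintro - ⟨p, hp, rfl⟩
        obtain ⟨j, rfl⟩ := mem_P₀.1 hp
        show c * _ * c⁻¹ * _ = _ * (c * _ * c⁻¹)
        have hci : c⁻¹ = bar (cj i)⁻¹ (inv_mem (cj_mem _)) := by
          rw [inv_eq_iff_mul_eq_one, hc, bar_mul]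
          exact (bar_congr (hτ := one_mem _) (Equiv.ext fun q => (cj i).apply_symm_apply q)).trans
            bar_one
        rw [hci, hc, bar_mul, bar_mul, bar_mul, bar_mul]
        exact bar_congr (Equiv.ext fun q => (syl_tables.2.2.2.2.1 i hk j q).symm)
    have h2 := hc.conj g⁻¹
    rw [hi, inv_inv] at h2
    rwa [show g⁻¹ * (g * y * g⁻¹) * g = y by group] at h2

theorem orderOf_s3 : orderOf s3 = 3 := by
  haveI : Fact (Nat.Prime 3) := ⟨by norm_num⟩
  have h3 : ∀ q, π3 (π3 (π3 q)) = q := by decide +kernel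
  refine orderOf_eq_prime ?_ fun e => ?_
  · rw [pow_succ, pow_two, s3, bar_mul, bar_mul]
    exact (bar_congr (hτ := one_mem _) (Equiv.ext h3)).trans bar_one
  · rw [← bar_one] at e
    exact sig_inv.2.2.2.2 (pt 0) (congrArg (fun f : Equiv.Perm GolayPt => f (pt 0)) (bar_inj e))

/-- The permutation is centralized by no subgroup of order 27. -/
theorem not_central_s3 : ¬ Central s3 := by
  rintro ⟨P, hP, hc⟩
  haveI : Fact (Nat.Prime 3) := ⟨by norm_num⟩
  have hmem := mem_of_comm not_81_dvd hP orderOf_s3 hc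
  let S : Sylow 3 X := Sylow.ofCard P (by rw [hP, card_X]; norm_num)
  obtain ⟨g, hg⟩ := conj_into S
  obtain ⟨i, hi⟩ := mem_P₀.1 (hg s3 hmem)
  -- conjugation carries `P` onto the Sylow subgroup
  have honto : ∀ j, ∃ p ∈ P, g * p * g⁻¹ = bar (syl j) (syl_mem _) := by
    intro j
    have he : P.map (MulAut.conj g).toMonoidHom = P₀ := by
      refine Subgroup.eq_of_le_of_card_ge ?_ (le_of_eq ?_)
      · rintro - ⟨p, hp, rfl⟩; exact hg p hp
      · rw [card_P₀, ← hP]
        exact (Nat.card_congr (P.equivMapOfInjective _ (MulAut.conj g).injective).toEquiv)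
    have : bar (syl j) (syl_mem _) ∈ P.map (MulAut.conj g).toMonoidHom := by
      rw [he]; exact mem_P₀.2 ⟨j, rfl⟩
    obtain ⟨p, hp, e⟩ := this
    exact ⟨p, hp, e⟩
  have hcen : ∀ j q, syl i (syl j q) = syl j (syl i q) := by
    intro j q
    obtain ⟨p, hp, e⟩ := honto j
    have h1 : bar (syl i) (syl_mem _) * bar (syl j) (syl_mem _) =
        bar (syl j) (syl_mem _) * bar (syl i) (syl_mem _) := by
      rw [hi, ← e]
      calc g * s3 * g⁻¹ * (g * p * g⁻¹) = g * (s3 * p) * g⁻¹ := by group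
        _ = g * (p * s3) * g⁻¹ := by rw [hc p hp]
        _ = _ := by group
    rw [bar_mul, bar_mul] at h1
    exact congrArg (fun f : Equiv.Perm GolayPt => f q) (bar_inj h1)
  obtain ⟨q, hq⟩ : ∃ q, syl i q = q := by
    rcases syl_tables.2.2.2.2.2 i hcen with h | h
    · exact ⟨pt 0, by rw [h]; exact syl_tables.1 _⟩
    · exact h
  -- lift to the monomial group
  have e1 : g * s3 = bar (syl i) (syl_mem _) * g := by
    rw [hi]; group
  obtain ⟨k, hk, hkg⟩ := g.2
  have e2 := congrArg Subtype.val e1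
  simp only [Subgroup.coe_mul, s3, bar] at e2
  rw [← hkg] at e2
  change (QuotientGroup.mk k : Cfsg.Spor.Co1) * QuotientGroup.mk _ =
    QuotientGroup.mk _ * QuotientGroup.mk k at e2
  rw [← QuotientGroup.mk_mul, ← QuotientGroup.mk_mul, QuotientGroup.eq, mem_center_iff,
    inv_mul_eq_one, inv_mul_eq_iff_eq_mul] at e2
  -- a point mapped to the fixed point
  obtain ⟨r, hr⟩ : ∃ r, act k (eight r) = eight q ∨ act k (eight r) = -eight q := by
    obtain ⟨r, e | e⟩ := mem_stdCross_iff.1 (mem_crossStab_iff.1 (inv_mem hk) (eight q)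
      (mem_stdCross_iff.2 ⟨q, Or.inl rfl⟩))
    · exact ⟨r, Or.inl (by rw [← e, act_inv_act k (eight q)])⟩
    · refine ⟨r, Or.inr ?_⟩
      have h := act_inv_act k (eight q)
      rw [e, act_neg _ (isLeech_eight r)] at h
      rw [← h, neg_neg]
  have hfix : act (permAut (syl i) (syl_mem _)) (act k (eight r)) = act k (eight r) := by
    rcases hr with h | h <;> rw [h]
    · rw [act_permAut _ (isLeech_eight q), permFun_eight, hq]
    · rw [act_neg _ (isLeech_eight q), act_permAut _ (isLeech_eight q), permFun_eight, hq]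
  have hne : π3 r ≠ r := sig_inv.2.2.2.2 r
  rcases e2 with e | e
  · have h := congrArg (fun c => act c (eight r)) e
    simp only [mul_act, hfix, act_permAut _ (isLeech_eight _), permFun_eight] at h
    exact hne (eight_injective (act_injective k h))
  · have h := congrArg (fun c => act c (eight r)) e
    simp only [mul_act, act_negOne (isLeech_eight _), act_neg _ (isLeech_eight _),
      act_neg _ (isLeech_act k (isLeech_eight _)), hfix, act_permAut _ (isLeech_eight _),
      permFun_eight] at h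
    have h' := congrArg (act k⁻¹) h
    simp only [act_neg _ (isLeech_act k (isLeech_eight _)), inv_act_act] at h'
    exact eight_ne_neg r (π3 r) h'

end Cfsg.Agent.H18.Monster.Prime.ThreeClass
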