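import Cfsg.Agent.H18.Monster.Prime.Position
import Cfsg.Agent.H18.Monster.Prime.ThreeClass
import Cfsg.Agent.H18.Monster.Prime.Three

/-!
A subgroup of order three of the centralizer of two commuting conjugates of the central involution
that is not central in a Sylow 3-subgroup can be put in standard position, and the element needed to
correct an exchange of the two conjugates.
-/

set_option autoImplicit false

namespace Cfsg.Agent.H18.Monster.Data

open Cfsg.Agent.H14
open Cfsg.Agent.H18.Monster.Prime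

variable {G : Type*} [Group G] [Finite G] {z : G}
  {Q : Subgroup (Subgroup.centralizer ({z} : Set G))} [Q.Normal] (D : Data z Q)

/-- The joint centralizer. -/
abbrev pairL (z x : G) : Subgroup G :=
  Subgroup.centralizer ({z} : Set G) ⊓ Subgroup.centralizer ({x} : Set G)

namespace Std

variable {D} {q : Q} {g : G} (h : Std D q g)
include h

theorem mem_X (a : pairL z (gv q)) :
    D.e (QuotientGroup.mk ⟨(a : G), a.2.1⟩) ∈ Prime.ThreeClass.X := by
  have hmem : (QuotientGroup.mk ⟨(a : G), a.2.1⟩ : Subgroup.centralizer ({z} : Set G) ⧸ Q) ∈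
      crossStab.map h.toQuot := by
    rw [← h.stab_eq]; exact ⟨⟨(a : G), a.2.1⟩, a.2, rfl⟩
  obtain ⟨k, hk, e⟩ := hmem
  exact ⟨k, hk, h.toQuot_eq_iff.1 e⟩

/-- The map of the joint centralizer onto the monomial group modulo its centre. -/
noncomputable def toX : pairL z (gv q) →* Prime.ThreeClass.X :=
  MonoidHom.codRestrict
    ((D.e.toMonoidHom.comp (QuotientGroup.mk' Q)).comp
      (Subgroup.inclusion (inf_le_left : pairL z (gv q) ≤ Subgroup.centralizer ({z} : Set G))))
    Prime.ThreeClass.X h.mem_X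

theorem toX_val (a : pairL z (gv q)) :
    (h.toX a : Cfsg.Spor.Co1) = D.e (QuotientGroup.mk ⟨(a : G), a.2.1⟩) := rfl

theorem toX_surjective : Function.Surjective h.toX := by
  rintro ⟨x, k, hk, rfl⟩
  have hmem : h.toQuot k ∈ crossStab.map h.toQuot := ⟨k, hk, rfl⟩
  rw [← h.stab_eq] at hmem
  obtain ⟨c, hc, e⟩ := hmem
  exact ⟨⟨(c : G), hc⟩, Subtype.ext (h.toQuot_eq_iff.1 e.symm).symm⟩

theorem toX_eq_one {a : pairL z (gv q)} :
    h.toX a = 1 ↔ (⟨(a : G), a.2.1⟩ : Subgroup.centralizer ({z} : Set G)) ∈ Q := by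
  rw [Subtype.ext_iff, toX_val, Subgroup.coe_one, MulEquiv.map_eq_one_iff,
    QuotientGroup.eq_one_iff]

theorem toX_ker : IsPGroup 2 h.toX.ker := by
  have hQ : IsPGroup 2 Q := IsPGroup.of_card D.hset.2.2.2.1
  intro a
  obtain ⟨k, hk⟩ := hQ ⟨⟨((a : pairL z (gv q)) : G), a.1.2.1⟩, h.toX_eq_one.1 a.2⟩
  refine ⟨k, Subtype.ext (Subtype.ext ?_)⟩
  exact (congrArg (fun r : Q => gv r) hk :)

theorem not_81_dvd : ¬ 81 ∣ Nat.card (pairL z (gv q)) := by
  obtain ⟨j, hj⟩ := D.card_pair (isConj_iff.2 ⟨g, h.hg⟩) h.hne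
  rw [hj, show 2048 * 244823040 * 2 ^ j = 244823040 * 2 ^ (11 + j) by rw [pow_add]; ring]
  intro h'
  have := (Nat.Coprime.pow_right (11 + j) (show Nat.Coprime 81 2 by norm_num)).dvd_of_dvd_mul_right h'
  norm_num at this

theorem orderOf_toX {a : pairL z (gv q)} (ha : orderOf a = 3) : orderOf (h.toX a) = 3 := by
  haveI : Fact (Nat.Prime 3) := ⟨by norm_num⟩
  haveI : Fact (Nat.Prime 2) := ⟨Nat.prime_two⟩
  refine orderOf_eq_prime (by rw [← map_pow, ← ha, pow_orderOf_eq_one, map_one]) fun e => ?_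
  obtain ⟨k, hk⟩ := h.toX_ker ⟨a, e⟩
  have h2 : a ^ 2 ^ k = 1 := congrArg Subtype.val hk
  have h3 := orderOf_dvd_of_pow_eq_one h2
  rw [ha] at h3
  exact absurd ((by norm_num : Nat.Prime 3).dvd_of_dvd_pow h3) (by norm_num)

theorem conj_of_not_central {a : pairL z (gv q)} (ha : orderOf a = 3)
    (hnc : ¬ Prime.ThreeClass.Central a) : ∃ u, u * Prime.ThreeClass.s3 * u⁻¹ = h.toX a := by
  refine Prime.ThreeClass.conj_of_not_central (h.orderOf_toX ha) fun hc => hnc ?_
  exact Prime.ThreeClass.central_of_map h.toX_ker h.toX_surjective Prime.ThreeClass.not_81_dvd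
    h.not_81_dvd (h.orderOf_toX ha) ha hc

/-- Two elements of order three centralized by no subgroup of order 27 generate conjugate groups. -/
theorem conj_pair {a c : pairL z (gv q)} (ha : orderOf a = 3) (hc : orderOf c = 3)
    (hna : ¬ Prime.ThreeClass.Central a) (hnc : ¬ Prime.ThreeClass.Central c) :
    ∃ l, l * c * l⁻¹ = a := by
  haveI : Fact (Nat.Prime 3) := ⟨by norm_num⟩
  haveI : Fact (Nat.Prime 2) := ⟨Nat.prime_two⟩
  obtain ⟨u, hu⟩ := h.conj_of_not_central ha hna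
  obtain ⟨v, hv⟩ := h.conj_of_not_central hc hnc
  obtain ⟨l, hl⟩ := h.toX_surjective (u * v⁻¹)
  obtain ⟨n, hn⟩ := h.toX_ker.exists_card_eq
  obtain ⟨k, -, hk⟩ := Prime.conj_lift h.toX.ker (p := 3) (by norm_num) hn (b := a)
    (y := l * c * l⁻¹) ha
    (by show orderOf (MulAut.conj l c) = 3; rw [MulEquiv.orderOf_eq, hc]) (by
      refine (QuotientGroup.kerLift_injective h.toX) ?_
      rw [QuotientGroup.kerLift_mk, QuotientGroup.kerLift_mk, map_mul, map_mul, map_inv, hl, ← hu,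
        ← hv]
      group)
  exact ⟨k * l, by rw [← hk]; group⟩

end Std

theorem sigma_three : (QuotientGroup.mk Prime.Three.model.σ : Cfsg.Spor.Co1) =
    (Prime.ThreeClass.s3 : Cfsg.Spor.Co1) := rfl

include D in
theorem exists_threeElt {q : Q} (h1 : IsConj z (gv q)) (h2 : gv q ≠ z) (Y : Subgroup G)
    (hY : Y ≤ Subgroup.centralizer ({z, gv q} : Set G)) (hY3 : Nat.card Y = 3)
    (hnc : ∀ P : Sylow 3 ↥(Subgroup.centralizer ({z, gv q} : Set G)),
      ¬ Y.subgroupOf (Subgroup.centralizer ({z, gv q} : Set G)) ≤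
        (Subgroup.center ↥(P : Subgroup ↥(Subgroup.centralizer ({z, gv q} : Set G)))).map
          (P : Subgroup ↥(Subgroup.centralizer ({z, gv q} : Set G))).subtype) :
    ∃ (D' : Data z Q) (b : G), PrimeElt D' Prime.Three.model b ∧ Y = Subgroup.zpowers b := by
  haveI : Fact (Nat.Prime 3) := ⟨by norm_num⟩
  obtain ⟨y, hy⟩ : ∃ y : Y, y ≠ 1 := by
    haveI : Nontrivial Y := Finite.one_lt_card_iff_nontrivial.1 (by omega)
    exact exists_ne 1
  have hordY : orderOf (y : G) = 3 := by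
    have h : orderOf y ∣ 3 := hY3 ▸ orderOf_dvd_natCard _
    rcases (Nat.dvd_prime (by norm_num)).1 h with h | h
    · exact absurd (orderOf_eq_one_iff.1 h) hy
    · rwa [← Subgroup.orderOf_coe] at h
  have hYgen : Y = Subgroup.zpowers (y : G) :=
    (Subgroup.eq_of_le_of_card_ge (by rw [Subgroup.zpowers_le]; exact y.2)
      (by rw [Nat.card_zpowers, hordY, hY3])).symm
  obtain ⟨D₁, hq⟩ := D.exists_standard h1 h2
  obtain ⟨g, hg⟩ := isConj_iff.1 h1
  have hstd : Std D₁ q g := ⟨hq, hg, h2⟩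
  have hpair : Subgroup.centralizer ({z, gv q} : Set G) = pairL z (gv q) := by
    ext a; simp [Subgroup.mem_centralizer_iff]
  rw [hpair] at hY
  have hnc' : ¬ Prime.ThreeClass.Central (⟨(y : G), hY y.2⟩ : pairL z (gv q)) := by
    rintro ⟨P, hP, hc⟩
    have hmem := Prime.ThreeClass.mem_of_comm hstd.not_81_dvd hP
      (by rw [← Subgroup.orderOf_coe]; exact hordY) hc
    -- move to the centralizer of the pair
    let j : pairL z (gv q) ≃* Subgroup.centralizer ({z, gv q} : Set G) :=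
      MulEquiv.subgroupCongr hpair.symm
    set P' := P.map j.toMonoidHom with hP'
    have hP'c : Nat.card P' = 27 :=
      (Nat.card_congr (P.equivMapOfInjective _ j.injective).toEquiv).symm.trans hP
    have h81 : ¬ 81 ∣ Nat.card ↥(Subgroup.centralizer ({z, gv q} : Set G)) := by
      rw [← Nat.card_congr j.toEquiv]; exact hstd.not_81_dvd
    let S : Sylow 3 ↥(Subgroup.centralizer ({z, gv q} : Set G)) := Sylow.ofCard P' (by
      rw [hP'c, Prime.ThreeClass.factorization_three h81 (hP'c ▸ P'.card_subgroup_dvd_card)]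
      norm_num)
    refine hnc S ?_
    intro a ha
    have ha' : (a : G) ∈ Subgroup.zpowers (y : G) := hYgen ▸ ha
    obtain ⟨i, hi⟩ := Subgroup.mem_zpowers_iff.1 ha'
    have hai : a = j ((⟨(y : G), hY y.2⟩ : pairL z (gv q)) ^ i) := Subtype.ext (by
      show (a : G) = (((⟨(y : G), hY y.2⟩ : pairL z (gv q)) ^ i : pairL z (gv q)) : G)
      rw [SubgroupClass.coe_zpow]; exact hi.symm)
    have hat : a ∈ P' := by
      rw [hai]; exact ⟨_, P.zpow_mem hmem i, rfl⟩
    refine ⟨⟨a, hat⟩, Subgroup.mem_center_iff.2 ?_, rfl⟩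
    rintro ⟨b, c, hc', rfl⟩
    apply Subtype.ext
    show j c * a = a * j c
    rw [hai, ← map_mul, ← map_mul, ((show Commute c _ from hc c hc').zpow_right i).eq]
  have hyo : orderOf (⟨(y : G), hY y.2⟩ : pairL z (gv q)) = 3 := by
    rw [← Subgroup.orderOf_coe]; exact hordY
  obtain ⟨⟨x, k, hk, hkx⟩, hu⟩ := hstd.conj_of_not_central hyo hnc'
  have hu' : x * (QuotientGroup.mk Prime.Three.model.σ : Cfsg.Spor.Co1) * x⁻¹ =
      D₁.e (QuotientGroup.mk ⟨(y : G), (hY y.2).1⟩) := by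
    rw [sigma_three]; exact congrArg Subtype.val hu
  refine ⟨D₁.twist k, (y : G), ⟨Subgroup.mem_centralizer_singleton_iff.1 (hY y.2).1, hordY, ?_⟩,
    hYgen⟩
  show (MulAut.conj (QuotientGroup.mk k : Cfsg.Spor.Co1)⁻¹) (D₁.e (QuotientGroup.mk _)) = _
  rw [← hu', ← hkx, MulAut.conj_apply]
  simp only [QuotientGroup.mk'_apply]
  group

namespace PrimeElt

variable {D} {b : G} (S : PrimeElt D Prime.Three.model b)
include S

theorem norm_three (w : G)
    (hwz : w * z * w⁻¹ = ((S.sec Prime.Three.model.mark : cen b z) : G))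
    (hwx : w * ((S.sec Prime.Three.model.mark : cen b z) : G) * w⁻¹ = z) :
    ∃ l : G, l * z = z * l ∧
      l * ((S.sec Prime.Three.model.mark : cen b z) : G) =
        ((S.sec Prime.Three.model.mark : cen b z) : G) * l ∧
      l * w * b * (l * w)⁻¹ ∈ Subgroup.zpowers b := by
  set r := S.sec Prime.Three.model.mark with hr
  obtain ⟨h1, h2⟩ := S.conj_mark
  rw [← hr] at h1 h2
  set q := S.qOf r with hq
  have hx : gv q = ((r : cen b z) : G) := S.gv_qOf r
  have hstd : Std D q w := by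
    refine ⟨?_, by rw [hx]; exact hwz, by rw [hx]; exact h2⟩
    obtain ⟨t, ht, e⟩ := Prime.Three.model.mark_congr
    rw [hq, hr, sec, S.qOf_mkFix, D.mod.mk_rep]
    exact ((D.cls_eq_iff Prime.Three.model.isLeech_markVec
      (Prime.Three.model.fixV_rep _).1).2 ⟨t, ht, e⟩).symm
  rw [← hx] at hwz hwx ⊢
  have hxb : gv q * b = b * gv q := by
    rw [hx]; exact Subgroup.mem_centralizer_singleton_iff.1 (r : cen b z).2.2
  have memL : ∀ a : G, a ∈ pairL z (gv q) ↔ a * z = z * a ∧ a * gv q = gv q * a := fun a => by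
    rw [Subgroup.mem_inf, Subgroup.mem_centralizer_singleton_iff,
      Subgroup.mem_centralizer_singleton_iff]
  have hwc : ∀ a ∈ pairL z (gv q), w * a * w⁻¹ ∈ pairL z (gv q) ∧ w⁻¹ * a * w ∈ pairL z (gv q) := by
    intro a ha
    obtain ⟨a1, a2⟩ := (memL a).1 ha
    have hz' : w⁻¹ * gv q * w = z := by rw [← hwz]; group
    have hx' : w⁻¹ * z * w = gv q := by
      calc w⁻¹ * z * w = w⁻¹ * (w * gv q * w⁻¹) * w := by rw [hwx]
        _ = gv q := by group
    refine ⟨(memL _).2 ⟨?_, ?_⟩, (memL _).2 ⟨?_, ?_⟩⟩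
    · calc w * a * w⁻¹ * z = w * a * w⁻¹ * (w * gv q * w⁻¹) := by rw [hwx]
        _ = w * (a * gv q) * w⁻¹ := by group
        _ = w * (gv q * a) * w⁻¹ := by rw [a2]
        _ = (w * gv q * w⁻¹) * (w * a * w⁻¹) := by group
        _ = z * (w * a * w⁻¹) := by rw [hwx]
    · calc w * a * w⁻¹ * gv q = w * a * w⁻¹ * (w * z * w⁻¹) := by rw [hwz]
        _ = w * (a * z) * w⁻¹ := by group
        _ = w * (z * a) * w⁻¹ := by rw [a1]
        _ = (w * z * w⁻¹) * (w * a * w⁻¹) := by group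
        _ = gv q * (w * a * w⁻¹) := by rw [hwz]
    · calc w⁻¹ * a * w * z = w⁻¹ * a * w * (w⁻¹ * gv q * w) := by rw [hz']
        _ = w⁻¹ * (a * gv q) * w := by group
        _ = w⁻¹ * (gv q * a) * w := by rw [a2]
        _ = (w⁻¹ * gv q * w) * (w⁻¹ * a * w) := by group
        _ = z * (w⁻¹ * a * w) := by rw [hz']
    · calc w⁻¹ * a * w * gv q = w⁻¹ * a * w * (w⁻¹ * z * w) := by rw [hx']
        _ = w⁻¹ * (a * z) * w := by group
        _ = w⁻¹ * (z * a) * w := by rw [a1]
        _ = (w⁻¹ * z * w) * (w⁻¹ * a * w) := by group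
        _ = gv q * (w⁻¹ * a * w) := by rw [hx']
  have hbL : b ∈ pairL z (gv q) := (memL b).2 ⟨S.hzb, hxb.symm⟩
  set bL : pairL z (gv q) := ⟨b, hbL⟩ with hbLdef
  have hb3 : orderOf bL = 3 := by rw [← Subgroup.orderOf_coe]; exact S.ord
  have hnb : ¬ Prime.ThreeClass.Central bL := by
    intro hc
    apply Prime.ThreeClass.not_central_s3
    have he : hstd.toX bL = Prime.ThreeClass.s3 := Subtype.ext (by
      rw [Std.toX_val, ← sigma_three]
      exact S.hb)
    exact he ▸ Prime.ThreeClass.Central.map hstd.toX_ker hc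
  set cL : pairL z (gv q) := ⟨w * b * w⁻¹, (hwc b hbL).1⟩ with hcL
  have hc3 : orderOf cL = 3 := by
    rw [← Subgroup.orderOf_coe]
    show orderOf (MulAut.conj w b) = 3
    rw [MulEquiv.orderOf_eq]
    exact S.ord
  have hnc : ¬ Prime.ThreeClass.Central cL := by
    rintro ⟨P, hP, hc⟩
    refine hnb ?_
    let f : pairL z (gv q) →* pairL z (gv q) :=
      ((MulAut.conj w⁻¹).toMonoidHom.comp (pairL z (gv q)).subtype).codRestrict _ fun a => by
        show w⁻¹ * (a : G) * w⁻¹⁻¹ ∈ _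
        rw [inv_inv]; exact (hwc _ a.2).2
    have hf : Function.Injective f := fun a c e =>
      Subtype.ext ((MulAut.conj w⁻¹).injective (congrArg Subtype.val e))
    refine ⟨P.map f, ?_, ?_⟩
    · rw [← hP]; exact (Nat.card_congr (P.equivMapOfInjective f hf).toEquiv).symm
    · rintro - ⟨p, hp, rfl⟩
      have e : (p : G) * (w * b * w⁻¹) = w * b * w⁻¹ * p := congrArg Subtype.val (hc p hp)
      apply Subtype.ext
      show w⁻¹ * (p : G) * w⁻¹⁻¹ * b = b * (w⁻¹ * (p : G) * w⁻¹⁻¹)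
      rw [inv_inv]
      calc w⁻¹ * (p : G) * w * b = w⁻¹ * ((p : G) * (w * b * w⁻¹)) * w := by group
        _ = w⁻¹ * (w * b * w⁻¹ * p) * w := by rw [e]
        _ = b * (w⁻¹ * (p : G) * w) := by group
  obtain ⟨l, hl⟩ := hstd.conj_pair hb3 hc3 hnb hnc
  refine ⟨(l : G), ((memL _).1 l.2).1, ((memL _).1 l.2).2, ?_⟩
  have e : (l : G) * (w * b * w⁻¹) * (l : G)⁻¹ = b := congrArg Subtype.val hl
  rw [show (l : G) * w * b * ((l : G) * w)⁻¹ = (l : G) * (w * b * w⁻¹) * (l : G)⁻¹ by group, e]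
  exact Subgroup.mem_zpowers b

end PrimeElt

end Cfsg.Agent.H18.Monster.Data
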