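import Cfsg.Agent.H18.Monster.Prime.ThreeData
import Cfsg.Agent.H18.Monster.Prime.FramePerm
import Cfsg.Agent.H18.Monster.Prime.NatLin

/-!
The tables for the code permutation of cycle type `3^8`: the centralizer of its lift to the
automorphism group of the Leech lattice acts on nine subspaces of the fixed sublattice modulo two
as the alternating group of degree 9.
-/

set_option autoImplicit false
set_option maxRecDepth 100000

namespace Cfsg.Agent.H18.Monster.Prime.Three

open Cfsg Cfsg.Agent.H14 Cfsg.Agent.H18.Monster.Prime.ThreeData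
open Cfsg.Agent.H18.Monster.Held (pt pf preserves mem_M24_of_preserves idx_pt pt_idx)

theorem img_inv : (∀ q, pf imgI (pf img q) = q) ∧ ∀ q, pf img (pf imgI q) = q := by decide +kernel

/-- The permutation. -/
noncomputable def sig : Equiv.Perm GolayPt := ⟨pf img, pf imgI, img_inv.1, img_inv.2⟩

theorem idx_sig : (∀ q, H15.idx (pf img q) = img.getD (H15.idx q) 0) ∧
    (∀ q, H15.idx (pf imgI q) = imgI.getD (H15.idx q) 0) ∧ preserves imgI = true := by decide +kernel

theorem sig_mem : sig ∈ M24 := mem_M24_of_preserves idx_sig.2.1 idx_sig.2.2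

theorem sig_pow_three : sig ^ 3 = 1 := by
  ext q : 1
  revert q
  decide +kernel

theorem orb_spec : ∀ q, q = (sig ^ pos.getD (H15.idx q) 0) (pt (orbRep.getD (lab.getD (H15.idx q) 0) 0)) := by
  decide +kernel

theorem lab_ok : (∀ q : GolayPt, lab.getD (H15.idx q) 0 < 8) ∧
    (∀ q, lab.getD (H15.idx (sig q)) 0 = lab.getD (H15.idx q) 0) ∧
    (∀ k : Fin 8, lab.getD (orbRep.getD k.val 0) 0 = k.val) ∧
    ∀ k : Fin 8, orbRep.getD k.val 0 < 24 := by decide +kernel

/-- The permutation with its orbits. -/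
noncomputable def orb : Orb where
  π := sig
  mem := sig_mem
  img := img
  n := 8
  lab := lab
  pos := pos
  rep := orbRep
  idx_π := idx_sig.1
  spec := orb_spec
  lab_lt := lab_ok.1
  lab_π := lab_ok.2.1
  lab_rep := lab_ok.2.2.1
  rep_lt := lab_ok.2.2.2

theorem fy_ok : ∀ i : Fin 8, fixTest img (fL.getD i.val []) = true ∧
    (H15.leechOk (yL.getD i.val []) = true ∧ (yL.getD i.val []).length = 24) ∧
    ∀ j : Fin 8, H15.listDot (yL.getD i.val []) (fL.getD j.val []) = if i = j then 8 else 0 := by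
  decide +kernel

theorem U_ok : ∀ k l : Fin 8, ∑ i : Fin 8, (U.getD k.val []).getD i.val 0 *
    ((List.range 24).map fun q => if lab.getD q 0 = l.val then
      (yL.getD i.val []).getD q 0 else 0).sum = if k = l then den else 0 := by decide +kernel

theorem rep_ok : ∀ m : Fin (2 ^ 8), fixTest img (repL.getD m.val []) = true ∧
    codeList 8 yL (repL.getD m.val []) = bitsN 8 m.val ∧
    (m.val ∈ classes ∨ H15.listDot (repL.getD m.val []) (repL.getD m.val []) ≤ 48) := by
  decide +kernel

theorem pair_ok : ∀ m : Fin (2 ^ 8), m.val ≠ 0 → ∃ d : Fin (2 ^ 8),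
    ¬ (16 : ℤ) ∣ H15.listDot (repL.getD m.val []) (repL.getD d.val []) := by decide +kernel

theorem mat_ok : mat.ok = true ∧ commTest img mat = true := by decide +kernel

theorem tau_ok : ∀ t : Fin 168, tauTest img (tauL.getD t.val []) (tauI.getD t.val []) = true := by
  decide +kernel

theorem fw_ok : (∀ n : Fin 16, wordTest img (fwL.getD n.val 0) = true) ∧
    tauI.getD 0 [] = List.range 24 ∧ fwL.getD 0 0 = 0 ∧ fwL.getD 15 0 = 2 ^ 24 - 1 := by
  decide +kernel

theorem inv_words : ∀ m : Fin (2 ^ 8),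
    Held.isWord (Nat.ofBits fun q : Fin 24 => m.val.testBit (lab.getD q.val 0)) = true →
      ∃ n : Fin 16, fwL.getD n.val 0 = Nat.ofBits fun q : Fin 24 => m.val.testBit (lab.getD q.val 0) := by
  decide +kernel

theorem sets_ok : ∀ j : Fin levelsT.length,
    orb.setsTest (1 + j.val) (levelsT.getD j.val []) = true := by decide +kernel

theorem search_ok : orb.search (fun i => img.getD i 0 == i) stabT levelsT [orbRep.getD 0 0] = true := by
  decide +kernel

theorem targets_idx : targets.length = 504 ∧ ∀ i : Fin 504, ∀ k : Fin 8,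
    (targets.getD i.val []).getD k.val 0 =
      orb.iter (i.val % 3) ((tauL.getD (i.val / 3) []).getD (orbRep.getD k.val 0) 0) := by decide +kernel

theorem bucket_ok : levelsT.length + 1 = 8 ∧ stabT.length = 21 ∧
    (∀ y : Fin 24, ∀ a : Fin 21, (bucket.getD y.val []).getD a.val 0 < 504 ∧
      (targets.getD ((bucket.getD y.val []).getD a.val 0) []).getD 0 0 = y.val) ∧
    (∀ i : Fin 504, bpos.getD i.val 0 < 21 ∧
      (bucket.getD ((targets.getD i.val []).getD 0 0) []).getD (bpos.getD i.val 0) 0 = i.val) ∧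
    ∀ y : Fin 24, ∀ a b : Fin 21, (∀ k : Fin 8,
      (targets.getD ((bucket.getD y.val []).getD a.val 0) []).getD k.val 0 =
        (targets.getD ((bucket.getD y.val []).getD b.val 0) []).getD k.val 0) → a = b := by
  decide +kernel

theorem tau_spec (t : Fin 168) : preserves (tauI.getD t.val []) = true ∧ ∀ i < 24,
    (tauL.getD t.val []).getD i 0 < 24 ∧ (tauI.getD t.val []).getD i 0 < 24 ∧
    (tauI.getD t.val []).getD ((tauL.getD t.val []).getD i 0) 0 = i ∧
    (tauL.getD t.val []).getD ((tauI.getD t.val []).getD i 0) 0 = i ∧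
    (tauL.getD t.val []).getD (img.getD i 0) 0 = img.getD ((tauL.getD t.val []).getD i 0) 0 := by
  have h := tau_ok t
  rw [tauTest, Bool.and_eq_true] at h
  refine ⟨h.1, fun i hi => ?_⟩
  have h2 := H15.allBelow_eq_true h.2 i hi
  simp only [Bool.and_eq_true, decide_eq_true_eq, beq_iff_eq] at h2
  exact ⟨h2.1.1.1.1, h2.1.1.1.2, h2.1.1.2, h2.1.2, h2.2⟩

/-- A commuting code permutation. -/
noncomputable def tauP (t : Fin 168) : Equiv.Perm GolayPt where
  toFun := pf (tauL.getD t.val [])
  invFun := pf (tauI.getD t.val [])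
  left_inv q := by
    obtain ⟨h1, -, h3, -, -⟩ := (tau_spec t).2 _ (H15.idx_lt q)
    show pt _ = q
    rw [show H15.idx (pf (tauL.getD t.val []) q) = _ from idx_pt h1, h3, pt_idx]
  right_inv q := by
    obtain ⟨-, h2, -, h4, -⟩ := (tau_spec t).2 _ (H15.idx_lt q)
    show pt _ = q
    rw [show H15.idx (pf (tauI.getD t.val []) q) = _ from idx_pt h2, h4, pt_idx]

theorem idx_tauP (t : Fin 168) (q : GolayPt) :
    H15.idx (tauP t q) = (tauL.getD t.val []).getD (H15.idx q) 0 :=
  idx_pt ((tau_spec t).2 _ (H15.idx_lt q)).1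

/-- The code permutations commuting with the permutation. -/
def Comm : Type := {ρ : Equiv.Perm GolayPt // ρ ∈ M24 ∧ ρ * orb.π = orb.π * ρ}

noncomputable instance : Finite Comm := Subtype.finite

/-- The elements of the table. -/
noncomputable def elt (i : Fin 504) : Comm :=
  ⟨sig ^ (i.val % 3) * tauP ⟨i.val / 3, by omega⟩,
    mul_mem (pow_mem sig_mem _) (mem_M24_of_preserves
      (fun q => idx_pt ((tau_spec _).2 _ (H15.idx_lt q)).2.1) (tau_spec _).1),
    ((show Commute (sig ^ (i.val % 3)) sig from (Commute.refl sig).pow_left _).mul_left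
      (Equiv.ext fun q => H15.idx_injective (by
        rw [Equiv.Perm.mul_apply, Equiv.Perm.mul_apply, idx_tauP,
          show H15.idx (sig q) = img.getD (H15.idx q) 0 from idx_sig.1 q,
          show H15.idx (sig (tauP _ q)) = img.getD (H15.idx (tauP _ q)) 0 from idx_sig.1 _,
          idx_tauP]
        exact ((tau_spec _).2 _ (H15.idx_lt q)).2.2.2.2) :
          Commute (tauP ⟨i.val / 3, by omega⟩) sig)).eq⟩

theorem idx_elt (i : Fin 504) (k : Fin 8) :
    H15.idx ((elt i).1 (orb.r k)) = (targets.getD i.val []).getD k.val 0 := by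
  rw [targets_idx.2 i k]
  show H15.idx ((orb.π ^ (i.val % 3)) (tauP _ (orb.r k))) = _
  rw [orb.idx_pow, idx_tauP]
  show orb.iter _ ((tauL.getD (i.val / 3) []).getD (H15.idx (pt (orbRep.getD k.val 0))) 0) = _
  rw [idx_pt (lab_ok.2.2.2 k)]

theorem elt_injective : Function.Injective elt := by
  intro i j e
  have h : ∀ k : Fin 8, (targets.getD i.val []).getD k.val 0 = (targets.getD j.val []).getD k.val 0 :=
    fun k => by rw [← idx_elt, ← idx_elt, e]
  have hy : ∀ i : Fin 504, (targets.getD i.val []).getD 0 0 < 24 := fun i =>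
    lt_of_eq_of_lt (idx_elt i (0 : Fin 8)).symm (H15.idx_lt _)
  obtain ⟨hi, hi'⟩ := bucket_ok.2.2.2.1 i
  obtain ⟨hj, hj'⟩ := bucket_ok.2.2.2.1 j
  have h0 : (targets.getD i.val []).getD 0 0 = (targets.getD j.val []).getD 0 0 := h 0
  rw [← h0] at hj'
  have := bucket_ok.2.2.2.2 ⟨_, hy i⟩ ⟨_, hi⟩ ⟨_, hj⟩ fun k => by
    show (targets.getD ((bucket.getD _ []).getD _ 0) []).getD _ 0 =
      (targets.getD ((bucket.getD _ []).getD _ 0) []).getD _ 0
    rw [hi', hj', h k]
  rw [Fin.mk.injEq] at this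
  apply Fin.ext
  rw [← hi', ← hj', this]

/-- The element moving the first representative to the same point. -/
noncomputable def lead (ρ : Comm) : Fin 504 :=
  ⟨(bucket.getD (H15.idx (ρ.1 (orb.r (0 : Fin 8)))) []).getD 0 0,
    (bucket_ok.2.2.1 ⟨_, H15.idx_lt _⟩ 0).1⟩

theorem lead_fix (ρ : Comm) : (elt (lead ρ)).1⁻¹ (ρ.1 (orb.r (0 : Fin 8))) = orb.r (0 : Fin 8) := by
  rw [Equiv.Perm.inv_eq_iff_eq]
  apply H15.idx_injective
  rw [idx_elt]
  exact ((bucket_ok.2.2.1 ⟨_, H15.idx_lt _⟩ 0).2).symm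

theorem exists_stab (ρ : Comm) :
    ∃ a : Fin 21, orb.imgList ((elt (lead ρ)).1⁻¹ * ρ.1) 8 = stabT.getD a.val [] := by
  set τ := (elt (lead ρ)).1⁻¹ * ρ.1 with hτ
  have hmem : τ ∈ M24 := mul_mem (inv_mem (elt (lead ρ)).2.1) ρ.2.1
  have hc : τ * orb.π = orb.π * τ :=
    ((show Commute (elt (lead ρ)).1 orb.π from (elt (lead ρ)).2.2).inv_left.mul_left
      (show Commute ρ.1 orb.π from ρ.2.2)).eq
  have h1 : orb.imgList τ 1 = [orbRep.getD 0 0] := by
    have : τ (orb.r (0 : Fin 8)) = orb.r (0 : Fin 8) := lead_fix ρ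
    show [H15.idx (τ (pt (orbRep.getD 0 0)))] = _
    rw [show τ (pt (orbRep.getD 0 0)) = pt (orbRep.getD 0 0) from this,
      idx_pt (show orbRep.getD 0 0 < 24 from lab_ok.2.2.2 0)]
  have h := orb.search_spec stabT hmem hc levelsT 1 (by rw [add_comm]; exact bucket_ok.1)
    (fun j hj => sets_ok ⟨j, hj⟩) (by rw [h1]; exact search_ok)
  obtain ⟨a, ha, e⟩ := List.getElem_of_mem h
  exact ⟨⟨a, bucket_ok.2.1 ▸ ha⟩, by rw [List.getD_eq_getElem _ _ ha, e]; rfl⟩

theorem comm_ok (π : Equiv.Perm GolayPt) (hπ : π ∈ M24) (hc : π * orb.π = orb.π * π) :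
    ∃ t : Fin 168, ∃ m : Fin 3, ∀ k : Fin 8,
      H15.idx (π (orb.r k)) = orb.iter m.val ((tauL.getD t.val []).getD (orbRep.getD k.val 0) 0) := by
  choose a ha using exists_stab
  let F : Comm → Fin 24 × Fin 21 := fun ρ => (⟨_, H15.idx_lt (ρ.1 (orb.r (0 : Fin 8)))⟩, a ρ)
  have hF : Function.Injective F := by
    intro ρ ρ' e
    simp only [F, Prod.mk.injEq, Fin.mk.injEq] at e
    have hl : lead ρ = lead ρ' := by
      apply Fin.ext
      show (bucket.getD (H15.idx _) []).getD 0 0 = (bucket.getD (H15.idx _) []).getD 0 0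
      rw [e.1]
    have h := ha ρ
    rw [e.2, ← ha ρ', hl] at h
    apply Subtype.ext
    refine mul_left_cancel (a := (elt (lead ρ')).1⁻¹) ?_
    have hcm : ∀ σ : Comm, ((elt (lead ρ')).1⁻¹ * σ.1) * orb.π = orb.π * ((elt (lead ρ')).1⁻¹ * σ.1) :=
      fun σ => ((show Commute (elt (lead ρ')).1 orb.π from (elt (lead ρ')).2.2).inv_left.mul_left
        (show Commute σ.1 orb.π from σ.2.2)).eq
    refine orb.eq_of_comm (hcm ρ) (hcm ρ') fun k => H15.idx_injective ?_
    rw [← orb.getD_imgList, ← orb.getD_imgList]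
    exact congrArg (fun R : List ℕ => R.getD k.val 0) h
  have hbij : Function.Bijective elt := by
    refine (Nat.bijective_iff_injective_and_card elt).2 ⟨elt_injective, le_antisymm
      (Nat.card_le_card_of_injective elt elt_injective) ?_⟩
    refine (Nat.card_le_card_of_injective F hF).trans (le_of_eq ?_)
    simp
  obtain ⟨i, hi⟩ := hbij.2 ⟨π, hπ, hc⟩
  refine ⟨⟨i.val / 3, by omega⟩, ⟨i.val % 3, by omega⟩, fun k => ?_⟩
  rw [← targets_idx.2 i k, ← idx_elt, hi]

theorem eight_ok : H15.leechOk tL = true ∧ ∀ i : Fin 24,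
    (if i.val = 23 then (8 : ℤ) else 0) - (repL.getD (classes.getD 0 0) []).getD i.val 0 =
      2 * tL.getD i.val 0 := by decide +kernel

theorem classes_ok : (∀ c ∈ classes, c < 2 ^ 8) ∧ 0 < classes.length ∧
    levels.length = 8 ∧ words.getD 0 [] = [] := by decide +kernel

theorem mu_ok : ∀ g : Fin (1 + 168 + 16), ∀ j : Fin 8,
    codeList 8 yL
      (if g.val = 0 then Held.actL mat (repL.getD (2 ^ j.val) []) else
        if g.val < 1 + 168 then monoList 0 (tauI.getD (g.val - 1) []) (repL.getD (2 ^ j.val) [])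
        else monoList (fwL.getD (g.val - 1 - 168) 0) (List.range 24) (repL.getD (2 ^ j.val) [])) =
      bitsN 8 ((muG.getD g.val []).getD j.val 0) := by decide +kernel

theorem word_bool : wordsTest 8 (1 + 168 + 16) muG words classes = true := by decide +kernel

theorem word_ok : ∀ c : Fin classes.length, (∀ g ∈ words.getD c.val [], g < 1 + 168 + 16) ∧
    (words.getD c.val []).foldr (fun g x => linC 8 (muG.getD g []) x) (bitsN 8 (classes.getD 0 0)) =
      bitsN 8 (classes.getD c.val 0) := wordsTest_spec word_bool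

theorem bas_bool : spansTest 8 4 9 bas = true := by decide +kernel

theorem bas_inj : ∀ i j : Fin 9, (∀ l : Fin 4, ∃ s : Fin 4 → ZMod 2,
    combC 8 4 (bas.getD j.val []) s = bitsN 8 ((bas.getD i.val []).getD l.val 0)) → i = j :=
  spansTest_spec bas_bool

theorem perm_bool : permTest 8 4 9 (1 + 168 + 16) muG bas permG = true := by decide +kernel

theorem perm_ok : ∀ g : Fin (1 + 168 + 16), ∀ i : Fin 9, (permG.getD g.val []).getD i.val 0 < 9 ∧
    ∀ l : Fin 4, ∃ s : Fin 4 → ZMod 2,
      combC 8 4 (bas.getD ((permG.getD g.val []).getD i.val 0) []) s =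
        linC 8 (muG.getD g.val []) (bitsN 8 ((bas.getD i.val []).getD l.val 0)) :=
  permTest_spec perm_bool

theorem permC_ok : ∀ c : Fin classes.length, ∀ i : Fin 9, (permC.getD c.val []).getD i.val 0 =
    (words.getD c.val []).foldr (fun g x => (permG.getD g []).getD x 0) i.val := by decide +kernel

theorem fix_i0 : i0 < 9 ∧ ∀ g : Fin (168 + 16), (permG.getD (1 + g.val) []).getD i0 0 = i0 := by
  decide +kernel

theorem ker_bool : H15.allBelow (fun c => !((permC.getD c []).getD i0 0 == i0) ||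
    H15.allBelow (fun n => H15.allBelow (fun t =>
      !(H15.allBelow (fun i => (permC.getD c []).getD
        ((permG.getD (1 + 168 + n) []).getD ((permG.getD (1 + t) []).getD i 0) 0) 0 == i) 9) ||
      ((c == 0 && t == 0) && (n == 0 || n == 16 - 1))) 168) 16) classes.length = true := by
  decide +kernel

theorem ker_ok : ∀ c : Fin classes.length, ∀ n : Fin 16, ∀ t : Fin 168,
    (∀ i : Fin 9, (permC.getD c.val []).getD
      ((permG.getD (1 + 168 + n.val) []).getD ((permG.getD (1 + t.val) []).getD i.val 0) 0) 0 = i.val) →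
    (c.val = 0 ∧ t.val = 0) ∧ (n.val = 0 ∨ n.val = 16 - 1) := fun c n t h => by
  have h0 : (permC.getD c.val []).getD i0 0 = i0 := by
    have h1 := h ⟨i0, fix_i0.1⟩
    rw [fix_i0.2 ⟨t.val, by omega⟩, show 1 + 168 + n.val = 1 + (168 + n.val) by omega,
      fix_i0.2 ⟨168 + n.val, by omega⟩] at h1
    exact h1
  have hk := H15.allBelow_eq_true ker_bool c.val c.2
  rw [Bool.or_eq_true, Bool.not_eq_true', beq_eq_false_iff_ne] at hk
  have hk := H15.allBelow_eq_true (H15.allBelow_eq_true (hk.resolve_left fun e => e h0) n.val n.2)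
    t.val t.2
  rw [Bool.or_eq_true, Bool.not_eq_true'] at hk
  rcases hk with hk | hk
  · rw [allBelow_intro fun i hi => beq_iff_eq.2 (h ⟨i, hi⟩)] at hk
    cases hk
  simpa only [Bool.and_eq_true, Bool.or_eq_true, beq_iff_eq] using hk

/-- The tables. -/
noncomputable def frame : Frame where
  O := orb
  p := 3
  prime := by norm_num
  odd := by norm_num
  pow_eq := sig_pow_three
  fL := fL
  yL := yL
  U := U
  den := den
  den_ne := by decide +kernel
  fy_ok := fy_ok
  U_ok := U_ok
  repL := repL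
  S := classes
  rep_ok := rep_ok
  pair_ok := pair_ok
  mat := mat
  mat_ok := mat_ok.1
  mat_comm := mat_ok.2
  NT := 168
  tauL := tauL
  tauI := tauI
  tau_ok := tau_ok
  tau_zero := ⟨by norm_num, fw_ok.2.1⟩
  NW := 16
  fwL := fwL
  fw_ok := fw_ok.1
  fw_ends := ⟨by norm_num, fw_ok.2.2⟩
  inv_words := inv_words
  comm_ok := comm_ok
  tL := tL
  eight_ok := eight_ok
  S_lt := classes_ok.1
  S_ne := classes_ok.2.1
  muG := muG
  mu_ok := mu_ok
  words := words
  word_ok := word_ok
  word_zero := classes_ok.2.2.2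
  N := 9
  D := 4
  bas := bas
  bas_inj := bas_inj
  permG := permG
  perm_ok := perm_ok
  permC := permC
  permC_ok := permC_ok
  ker_ok := ker_ok

end Cfsg.Agent.H18.Monster.Prime.Three
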